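import Cfsg.Agent.H73.J3
import Cfsg.Agent.H80.Chk
import Cfsg.Agent.H74.SC
/-! Orbits of the triple cover of the third Janko group on the vectors of its 9-space. -/

namespace H37
namespace J3O
open H71 H80 H73 H73.J3 Cfsg.Spor Matrix

/-- Plane `k` of the codes below `2 ^ 18`. -/
noncomputable def P (k : ℕ) : ℕ := plane k (Nat.sub 17 k)

theorem testBit_P {k y : ℕ} (hk : k < 18) (hy : y < 2 ^ 18) : (P k).testBit y = y.testBit k := by
  have e : P k = plane k (17 - k) := rfl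
  rw [e, testBit_plane, show k + 1 + (17 - k) = 18 by omega]
  simp only [hy, decide_true, Bool.true_and]

/-- A network from triples. -/
noncomputable def mkN (L : List (ℕ × ℕ × ℕ)) : Net :=
  List.rec (motive := fun _ => Net) Net.nil
    (fun t _ ih => Net.cons t.1 (dif (P t.2.1) (P t.2.2)) ih) L

/-- The network of the first generator. -/
noncomputable def na : Net := mkN [(32768, 14, 15), (65536, 17, 16), (63, 0, 6), (126, 1, 7),
  (252, 2, 8), (504, 3, 9), (1008, 4, 10), (2016, 5, 11), (4032, 6, 12), (8064, 7, 13),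
  (32512, 8, 15), (15872, 9, 14), (130048, 10, 17), (63488, 11, 16), (16384, 14, 15),
  (65536, 16, 17)]

/-- The network of the second generator. -/
noncomputable def nb : Net := mkN [(4, 4, 2), (64, 2, 6), (4096, 2, 12), (8, 5, 3), (128, 3, 7),
  (8192, 3, 13), (16, 6, 4), (16, 12, 4), (4, 4, 2), (32, 7, 5), (32, 13, 5), (8, 5, 3),
  (256, 10, 8), (16384, 8, 14), (65536, 8, 16), (512, 11, 9), (32768, 9, 15), (131072, 9, 17),
  (1024, 14, 10), (1024, 16, 10), (256, 10, 8), (2048, 15, 11), (2048, 17, 11), (512, 11, 9),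
  (252, 2, 8), (504, 3, 9), (65520, 4, 16), (131040, 5, 17), (960, 6, 10), (1920, 7, 11),
  (3840, 8, 12), (7680, 9, 13), (64512, 10, 16), (129024, 11, 17), (12288, 12, 14),
  (24576, 13, 15)]

/-- The letters on bit sets. -/
noncomputable def A : ℕ → ℕ → ℕ := mkA [] [na, nb]
/-- The letters on codes. -/
noncomputable def π : ℕ → Equiv.Perm ℕ := mkPi [] [na, nb]

theorem va : Net.valid 262144 na = true := by decide +kernel
theorem vb : Net.valid 262144 nb = true := by decide +kernel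

theorem env : Env 262144 π A :=
  env_mk (by simp) (by
    intro r hr
    simp only [List.mem_cons, List.not_mem_nil, or_false] at hr
    rcases hr with rfl | rfl
    · exact va
    · exact vb)

/-- The sum of the planes selected by row `k` of the matrix code `a`. -/
noncomputable def rowX (a k n : ℕ) : ℕ :=
  Nat.rec (motive := fun _ => ℕ) 0
    (fun j ih => Bool.rec (motive := fun _ => ℕ) ih (Nat.xor ih (P j))
      (tb a (Nat.add (Nat.mul 18 k) j))) n

theorem testBit_rowX (a k : ℕ) {y : ℕ} (hy : y < 2 ^ 18) {n : ℕ} (hn : n ≤ 18) :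
    b2z ((rowX a k n).testBit y) =
      ∑ j ∈ Finset.range n, b2z (a.testBit (18 * k + j)) * b2z (y.testBit j) := by
  induction n with
  | zero => simp [rowX, b2z]
  | succ n ih =>
    have e : rowX a k (n + 1) = Bool.rec (motive := fun _ => ℕ) (rowX a k n)
      (rowX a k n ^^^ P n) (tb a (18 * k + n)) := rfl
    rw [e, Finset.sum_range_succ, ← ih (by omega), tb_eq]
    cases a.testBit (18 * k + n)
    · simp [b2z]
    · show b2z ((rowX a k n ^^^ P n).testBit y) = _
      rw [Nat.testBit_xor, b2z_xor, testBit_P (by omega) hy]; simp [b2z]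

/-- Letter `l` acts by the matrix code `a`. -/
noncomputable def actB (l a : ℕ) : Bool := allLt (fun k => Nat.beq (A l (P k)) (rowX a k 18)) 18

theorem a0 : actB 0 (get2 324 G2 0) = true := by decide +kernel
theorem a1 : actB 1 (get2 324 G2 1) = true := by decide +kernel

theorem lt_pi (l : ℕ) {y : ℕ} (hy : y < 2 ^ 18) : π l y < 2 ^ 18 :=
  Mdl.lt_of_fix (env.fix l) hy

theorem lt_inv (l : ℕ) {y : ℕ} (hy : y < 2 ^ 18) : (π l)⁻¹ y < 2 ^ 18 :=
  Mdl.lt_of_fix (Mdl.inv_fix (env.fix l)) hy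

/-- The bit pair of a coordinate. -/
def pr (y : ℕ) (z : F9) : ZMod 2 × ZMod 2 :=
  (b2z (y.testBit (2 * ix z)), b2z (y.testBit (2 * ix z + 1)))

theorem e9_symm : ∀ (z : F9) (k : Fin 2), ((e9.symm (z, k) : Fin 18) : ℕ) = 2 * ix z + k := by
  decide

theorem pr_act {l a : ℕ} {t : F9 → F9 → ZMod 2 × ZMod 2} (h : actB l a = true) (hc : codeOK a t)
    {y : ℕ} (hy : y < 2 ^ 18) (w : F9) : pr ((π l)⁻¹ y) w = ∑ z, mul4 (t w z) (pr y z) := by
  have key : ∀ k : Fin 2, b2z (((π l)⁻¹ y).testBit (2 * ix w + k)) =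
      ∑ z, ∑ m : Fin 2, rep4 (t w z) k m * b2z (y.testBit (2 * ix z + m)) := by
    intro k
    have hi := (e9.symm (w, k)).2
    have h1 := beq_eq (of_allLt h _ hi)
    have h2 := env.app l (P (e9.symm (w, k))) y
    rw [h1, testBit_P hi (lt_inv l hy)] at h2
    rw [← e9_symm, ← h2, testBit_rowX _ _ hy le_rfl, Finset.sum_range, ← Fintype.sum_prod_type',
      ← e9.symm.sum_comp]
    refine Finset.sum_congr rfl fun p _ => ?_
    rw [hc, Equiv.apply_symm_apply, Equiv.apply_symm_apply, ← e9_symm]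
  have k0 := key 0
  have k1 := key 1
  simp only [Fin.sum_univ_two, rep4, Fin.val_zero, Fin.val_one, add_zero, of_apply, cons_val',
    cons_val_zero, cons_val_one, cons_val_fin_one] at k0 k1
  ext
  · simp only [pr, Prod.fst_sum, mul4, k0]
  · simp only [pr, Prod.snd_sum, mul4, k1]
    exact Finset.sum_congr rfl fun z _ => by ring

/-- The nine coordinates. -/
def zs : List F9 := [(0, 0), (0, 1), (0, 2), (1, 0), (1, 1), (1, 2), (2, 0), (2, 1), (2, 2)]

/-- The codes with an odd number of nonzero coordinates. -/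
noncomputable def par (L : List F9) : ℕ :=
  List.rec (motive := fun _ => ℕ) 0
    (fun z _ ih => Nat.xor ih (Nat.lor (P (2 * ix z)) (P (2 * ix z + 1)))) L

/-- The check of the first orbit. -/
noncomputable def k1 (O : ℕ) : Bool :=
  bnd (Nat.beq (A 0 O) O) (bnd (Nat.beq (A 1 O) O) (bnd (subB 14 O) (H74.sizeChk 18 O 69768)))

theorem g1 : growW A [[0], [1]] [0, 0, 1, 0, 0, 1, 0, 0, 1, 0, 0, 1, 0, 0, 1, 0, 0, 1, 0, 0, 1, 0,
    0, 1, 0, 0, 1, 0, 0, 1, 0, 0, 0, 1, 0, 0, 0, 0] k1 (one 1) = true := by decide +kernel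

theorem g2 : growW A [[0], [1]] [0, 0, 1, 0, 0, 1, 0, 0, 1, 0, 0, 1, 0, 0, 1, 0, 0, 1, 0, 0, 1, 0,
    0, 1, 0, 0, 1, 0, 0, 1, 0, 0, 0, 1, 0, 0, 0, 0, 0, 0]
    (subB (dif (dif (full 262144) (par zs)) (one 0))) (one 4160) = true := by decide +kernel

theorem sum_zs {M : Type*} [AddCommMonoid M] (f : F9 → M) : ∑ z, f z = (zs.map f).sum := by
  have h : (Finset.univ : Finset F9).val = ↑zs := by decide
  rw [Finset.sum, h, Multiset.map_coe, Multiset.sum_coe]

theorem ix_surj : ∀ k < 9, ∃ z, ix z = k := by decide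

section
variable {F : Type} [Field F] [Fintype F] (hF : Fintype.card F = 4) {ω : F}
  (hω : ω ^ 2 + ω + 1 = 0)

/-- The vector with code `y`. -/
def vec (ω : F) (y : ℕ) : F9 → F := fun z => ev4 ω (pr y z)

include hF hω in
theorem vec_inj {y y' : ℕ} (hy : y < 2 ^ 18) (hy' : y' < 2 ^ 18) (h : vec ω y = vec ω y') :
    y = y' := by
  apply Nat.eq_of_testBit_eq
  intro k
  by_cases hk : k < 18
  · obtain ⟨z, hz⟩ := ix_surj (k / 2) (by omega)
    have h1 : pr y z = pr y' z := ev4_inj hF hω (congrFun h z)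
    rcases Nat.mod_two_eq_zero_or_one k with h2 | h2
    · rw [show k = 2 * ix z by omega]; exact b2z_inj (congrArg Prod.fst h1)
    · rw [show k = 2 * ix z + 1 by omega]; exact b2z_inj (congrArg Prod.snd h1)
  · have hle : 2 ^ 18 ≤ 2 ^ k := Nat.pow_le_pow_right (by norm_num) (by omega)
    rw [Nat.testBit_lt_two_pow (by omega), Nat.testBit_lt_two_pow (by omega)]

include hF hω in
theorem vec_surj (v : F9 → F) : ∃ y < 2 ^ 18, vec ω y = v := by
  choose p hp using fun z => (ev4_bij hF hω).2 (v z)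
  have hb : ∀ a : ZMod 2, b2z (decide (a = 1)) = a := by decide
  refine ⟨Nat.ofBits fun i : Fin 18 =>
    decide ((if (e9 i).2 = 0 then (p (e9 i).1).1 else (p (e9 i).1).2) = 1),
    Nat.ofBits_lt_two_pow _, funext fun z => ?_⟩
  rw [← hp z, vec]
  congr 1
  have h0 := e9_symm z 0
  have h1 := e9_symm z 1
  simp only [Fin.val_zero, Fin.val_one, add_zero] at h0 h1
  rw [pr, ← h1, ← h0, Nat.testBit_ofBits_lt _ _ (Fin.is_lt _), Nat.testBit_ofBits_lt _ _ (Fin.is_lt _)]
  simp [hb]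

include hF hω in
theorem vec_act {l a : ℕ} {t : F9 → F9 → ZMod 2 × ZMod 2} (h : actB l a = true)
    (hc : codeOK a t) {y : ℕ} (hy : y < 2 ^ 18) :
    vec ω ((π l)⁻¹ y) = (Matrix.of fun w z => ev4 ω (t w z)) *ᵥ vec ω y := by
  funext w
  let φ : ZMod 2 × ZMod 2 →+ F := AddMonoidHom.mk' (ev4 ω) (ev4_add hF)
  have : vec ω ((π l)⁻¹ y) w = φ (∑ z, mul4 (t w z) (pr y z)) := by rw [← pr_act h hc hy]; rfl
  rw [this, map_sum]
  exact Finset.sum_congr rfl fun z _ => ev4_mul hF hω _ _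

theorem gen_act {l : ℕ} (hl : l < 2) {g : GL F9 F} (hg : (sF hF hω).R (get2 324 G2 l) g) {y : ℕ}
    (hy : y < 2 ^ 18) : vec ω ((π l)⁻¹ y) = (g : Matrix F9 F9 F) *ᵥ vec ω y := by
  interval_cases l
  · rw [(R_iff hF hω c0 g).1 hg]; exact vec_act hF hω a0 c0 hy
  · rw [(R_iff hF hω c1 g).1 hg]; exact vec_act hF hω a1 c1 hy

/-- The code `i` lies in the orbit of `v`. -/
def Orb (ω : F) (v : F9 → F) (i : ℕ) : Prop :=
  i < 2 ^ 18 ∧ ∃ g ∈ threeJ3 F ω, (g : Matrix F9 F9 F) *ᵥ v = vec ω i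

include hF hω in
theorem orb_step (v : F9 → F) : ∀ w ∈ [[0], [1]], ∀ i, Orb ω v i → Orb ω v (evw π w i) := by
  have key : ∀ l < 2, ∀ i, Orb ω v i → Orb ω v (π l i) := by
    rintro l hl i ⟨hi, g, hg, e⟩
    obtain ⟨h, -, hh⟩ := hvF hF hω l hl
    have hm : h ∈ threeJ3 F ω := by
      rw [threeJ3_eq hF hω]; exact Subgroup.subset_closure ⟨l, hl, hh⟩
    have := gen_act hF hω hl hh (lt_pi l hi)
    rw [show (π l)⁻¹ (π l i) = i by simp] at this
    refine ⟨lt_pi l hi, h⁻¹ * g, mul_mem (inv_mem hm) hg, ?_⟩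
    rw [Units.val_mul, ← mulVec_mulVec, e, this, mulVec_mulVec, Units.inv_mul, one_mulVec]
  intro w hw i hi
  simp only [List.mem_cons, List.not_mem_nil, or_false] at hw
  rcases hw with rfl | rfl
  · simpa using key 0 (by norm_num) i hi
  · simpa using key 1 (by norm_num) i hi

theorem orb_one {b : ℕ} (hb : b < 2 ^ 18) (i : ℕ) (hi : (one b).testBit i = true) :
    Orb ω (vec ω b) i := by
  rw [(testBit_one _ _).1 hi]
  exact ⟨hb, 1, one_mem _, by simp⟩

include hF hω in
theorem cube_sum {y : ℕ} (hy : y < 2 ^ 18) (L : List F9) :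
    (L.map fun z => vec ω y z ^ 3).sum = if (par L).testBit y then 1 else 0 := by
  have h2 := f4_two hF
  have h3 : ω ^ 3 = 1 := by linear_combination (ω - 1) * hω
  have h4 : (1 + ω) ^ 3 = 1 := by linear_combination (ω + 2) * hω - h2
  induction L with
  | nil => simp [par]
  | cons z L ih =>
    have e : par (z :: L) = par L ^^^ (P (2 * ix z) ||| P (2 * ix z + 1)) := rfl
    have := ix_lt z
    rw [List.map_cons, List.sum_cons, ih, e, Nat.testBit_xor, Nat.testBit_or,
      testBit_P (by omega) hy, testBit_P (by omega) hy, vec, pr]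
    have h5 : (1 : F) + 1 = 0 := by linear_combination h2
    cases y.testBit (2 * ix z) <;> cases y.testBit (2 * ix z + 1) <;> cases (par L).testBit y <;>
      simp [b2z, h3, h4, h5]

include hF hω in
theorem iso_orb {v : F9 → F} (h0 : v ≠ 0) (hv : ∑ z, v z ^ 3 = 0) :
    ∃ g ∈ threeJ3 F ω, (g : Matrix F9 F9 F) *ᵥ vec ω 4160 = v := by
  obtain ⟨y, hy, rfl⟩ := vec_surj hF hω v
  refine (growW_sub env (Orb ω (vec ω 4160)) (orb_step hF hω _) (orb_one (by norm_num)) g2 y ?_).2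
  rw [testBit_dif, testBit_dif, testBit_full, testBit_one]
  refine ⟨⟨hy, fun h => ?_⟩, ?_⟩
  · rw [sum_zs, cube_sum hF hω hy, if_pos h] at hv
    exact one_ne_zero hv
  · rintro rfl
    exact h0 (funext fun z => by simp [vec, pr, b2z])

omit [Fintype F] in
theorem vec_small (a b : Bool) : vec ω (a.toNat + 2 * b.toNat) =
    ev4 ω (b2z a, b2z b) • (Pi.single (0 : F9) (1 : F) : F9 → F) := by
  have h : ∀ (a b : Bool) (z : F9), pr (a.toNat + 2 * b.toNat) z =
      if z = 0 then (b2z a, b2z b) else (0, 0) := by decide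
  funext z
  rw [vec, h]
  by_cases hz : z = 0
  · simp [hz]
  · simp [hz]

include hF hω in
theorem first_orb : ∃ V : Set (F9 → F), V.ncard = 69768 ∧
    (∀ v, v ∈ V ↔ ∃ g ∈ threeJ3 F ω,
      (g : Matrix F9 F9 F) *ᵥ (Pi.single (0 : F9) (1 : F) : F9 → F) = v) ∧
    ∀ c : F, c ≠ 0 → c • (Pi.single (0 : F9) (1 : F) : F9 → F) ∈ V := by
  have e1 : vec ω 1 = (Pi.single (0 : F9) (1 : F) : F9 → F) := by
    simpa [b2z] using vec_small (ω := ω) true false
  obtain ⟨O, hO, hk⟩ := growW_sound env (Orb ω (vec ω 1)) (orb_step hF hω _)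
    (orb_one (by norm_num)) g1
  obtain ⟨hA0, hk⟩ := bnd_iff.1 hk
  obtain ⟨hA1, hk⟩ := bnd_iff.1 hk
  obtain ⟨h14, hs⟩ := bnd_iff.1 hk
  have hA : ∀ l < 2, A l O = O := by
    intro l hl
    interval_cases l
    · exact beq_eq hA0
    · exact beq_eq hA1
  have hsc : ∀ c : F, c ≠ 0 → c • (Pi.single (0 : F9) (1 : F) : F9 → F) ∈ vec ω '' H74.bits O := by
    intro c hc
    obtain ⟨p, rfl⟩ := (ev4_bij hF hω).2 c
    rcases pair_cases p with rfl | rfl | rfl | rfl
    · simp at hc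
    · exact ⟨1, of_subB h14 (by decide), vec_small true false⟩
    · exact ⟨2, of_subB h14 (by decide), vec_small false true⟩
    · exact ⟨3, of_subB h14 (by decide), vec_small true true⟩
  refine ⟨vec ω '' H74.bits O, ?_, fun v => ⟨?_, ?_⟩, hsc⟩
  · have hi : Set.InjOn (vec ω) (H74.bits O) :=
      fun y hy y' hy' => vec_inj hF hω (hO y hy).1 (hO y' hy').1
    rw [hi.ncard_image, H74.ncard_bits hs]
  · rintro ⟨y, hy, rfl⟩
    rw [← e1]; exact (hO y hy).2
  · rintro ⟨g, hg, rfl⟩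
    have key : ∀ v, (g : Matrix F9 F9 F) *ᵥ v ∈ vec ω '' H74.bits O ↔ v ∈ vec ω '' H74.bits O := by
      rw [threeJ3_eq hF hω] at hg
      induction hg using Subgroup.closure_induction with
      | mem g hg =>
        obtain ⟨l, hl, hg⟩ := hg
        intro v
        obtain ⟨y, hy, rfl⟩ := vec_surj hF hω v
        have h1 : O.testBit ((π l)⁻¹ y) = O.testBit y := by rw [← env.app, hA l hl]
        rw [← gen_act hF hω hl hg hy]
        constructor
        · rintro ⟨x, hx, e⟩
          rw [vec_inj hF hω (hO x hx).1 (lt_inv l hy) e, H74.mem_bits, h1] at hx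
          exact ⟨y, hx, rfl⟩
        · rintro ⟨x, hx, e⟩
          rw [vec_inj hF hω (hO x hx).1 hy e, H74.mem_bits, ← h1] at hx
          exact ⟨_, hx, rfl⟩
      | one => simp
      | mul g h _ _ ihg ihh => intro v; rw [Units.val_mul, ← mulVec_mulVec, ihg, ihh]
      | inv g _ ih => intro v; rw [← ih, mulVec_mulVec, Units.mul_inv, one_mulVec]
    rw [key]
    simpa using hsc 1 one_ne_zero

include hF in
theorem lines_card {ι : Type} [Fintype ι] {V : Set (ι → F)} (h0 : (0 : ι → F) ∉ V)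
    (hs : ∀ v ∈ V, ∀ c : F, c ≠ 0 → c • v ∈ V) :
    V.ncard = 3 * ((fun v => (F ∙ v : Submodule F (ι → F))) '' V).ncard := by
  classical
  have hfin := V.toFinite
  rw [← hfin.coe_toFinset, ← Finset.coe_image, Set.ncard_coe_finset, Set.ncard_coe_finset,
    Finset.card_eq_sum_card_image (fun v => (F ∙ v : Submodule F (ι → F))), mul_comm,
    Finset.sum_const_nat]
  intro L hL
  obtain ⟨u, hu, rfl⟩ := Finset.mem_image.1 hL
  rw [Set.Finite.mem_toFinset] at hu
  have hu0 : u ≠ 0 := fun h => h0 (h ▸ hu)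
  have : hfin.toFinset.filter (fun v => (F ∙ v : Submodule F (ι → F)) = F ∙ u) =
      (Finset.univ.erase (0 : F)).image fun c => c • u := by
    ext v
    simp only [Finset.mem_filter, Set.Finite.mem_toFinset, Finset.mem_image, Finset.mem_erase,
      Finset.mem_univ, and_true]
    constructor
    · rintro ⟨hv, e⟩
      obtain ⟨c, hc⟩ := Submodule.mem_span_singleton.1 (e ▸ Submodule.mem_span_singleton_self v)
      refine ⟨c, ?_, hc⟩
      rintro rfl
      rw [zero_smul] at hc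
      exact h0 (hc ▸ hv)
    · rintro ⟨c, hc, rfl⟩
      exact ⟨hs u hu c hc, Submodule.span_singleton_smul_eq hc.isUnit u⟩
  rw [this, Finset.card_image_of_injective _ (smul_left_injective F hu0), Finset.card_erase_of_mem
    (Finset.mem_univ _), Finset.card_univ, hF]

include hF hω in
theorem lines : {L : Submodule F (F9 → F) | ∃ g ∈ threeJ3 F ω,
    L = F ∙ ((g : Matrix F9 F9 F) *ᵥ (Pi.single (0 : F9) (1 : F) : F9 → F))}.ncard = 23256 := by
  obtain ⟨V, hc, hV, hs⟩ := first_orb hF hω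
  have h := lines_card hF (V := V) ?_ ?_
  · have e : {L : Submodule F (F9 → F) | ∃ g ∈ threeJ3 F ω,
        L = F ∙ ((g : Matrix F9 F9 F) *ᵥ (Pi.single (0 : F9) (1 : F) : F9 → F))} =
        (fun v => (F ∙ v : Submodule F (F9 → F))) '' V := by
      ext L
      constructor
      · rintro ⟨g, hg, rfl⟩
        exact ⟨_, (hV _).2 ⟨g, hg, rfl⟩, rfl⟩
      · rintro ⟨v, hv, rfl⟩
        obtain ⟨g, hg, rfl⟩ := (hV v).1 hv
        exact ⟨g, hg, rfl⟩
    rw [e]; omega
  · intro h0
    obtain ⟨g, -, e⟩ := (hV _).1 h0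
    have := congrArg (fun v => ((g⁻¹ : GL F9 F) : Matrix F9 F9 F) *ᵥ v) e
    simp only [mulVec_mulVec, Units.inv_mul, one_mulVec, mulVec_zero] at this
    simpa using congrFun this 0
  · intro v hv c hc
    obtain ⟨g, hg, rfl⟩ := (hV _).1 hv
    obtain ⟨h, hh, e⟩ := (hV _).1 (hs c hc)
    exact (hV _).2 ⟨g * h, mul_mem hg hh, by rw [Units.val_mul, ← mulVec_mulVec, e, mulVec_smul]⟩

include hF hω in
theorem iso_trans {v w : F9 → F} (hv : v ≠ 0) (hw : w ≠ 0) (h1 : ∑ z, v z ^ 3 = 0)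
    (h2 : ∑ z, w z ^ 3 = 0) :
    ∃ g ∈ threeJ3 F ω, ∃ c : F, c ≠ 0 ∧ (g : Matrix F9 F9 F) *ᵥ v = c • w := by
  obtain ⟨g, hg, rfl⟩ := iso_orb hF hω hv h1
  obtain ⟨h, hh, rfl⟩ := iso_orb hF hω hw h2
  refine ⟨h * g⁻¹, mul_mem hh (inv_mem hg), 1, one_ne_zero, ?_⟩
  rw [mulVec_mulVec, ← Units.val_mul, inv_mul_cancel_right, one_smul]

end

end J3O
end H37
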