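import Cfsg.Agent.H20.LD4Tv
import Cfsg.Agent.S0206

/-! LD4 (blueprints/LD4.md): the job `JobTVD`. -/

set_option autoImplicit false

namespace H37.TVD

open Cfsg Matrix H20.LD

universe u

variable {k : Type u} [Field k] {T : V4 k → V4 k → Prop} {K : Subfield k}
  {u w y v φ ψ χ η α ε : V4 k}

/-- Three independent vectors of a hyperplane span it. -/
theorem span3 {μ a b c x : V4 k} (hμ : μ ≠ 0) (ha : μ ⬝ᵥ a = 0) (hb : μ ⬝ᵥ b = 0) (hc : μ ⬝ᵥ c = 0)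
    (hi : ∀ r s t : k, r • a + s • b + t • c = 0 → r = 0 ∧ s = 0 ∧ t = 0) (hx : μ ⬝ᵥ x = 0) :
    ∃ r s t : k, x = r • a + s • b + t • c := by
  obtain ⟨z, z0, hz⟩ := (exists_vecMul_eq_zero_iff (M := of ![a, b, c, x])).2
    (exists_mulVec_eq_zero_iff.1 ⟨μ, hμ, funext fun i => by
      fin_cases i
      exacts [(dotProduct_comm a μ).trans ha, (dotProduct_comm b μ).trans hb,
        (dotProduct_comm c μ).trans hc, (dotProduct_comm x μ).trans hx]⟩)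
  have e : z 0 • a + z 1 • b + z 2 • c + z 3 • x = 0 := funext fun i => by
    simpa [vecMul, dotProduct, Fin.sum_univ_four] using congrFun hz i
  have h3 : z 3 ≠ 0 := fun h => z0 (by
    obtain ⟨h0, h1, h2⟩ := hi _ _ _ (by simpa [h] using e)
    funext i; fin_cases i <;> assumption)
  refine ⟨-(z 0 / z 3), -(z 1 / z 3), -(z 2 / z 3), smul_right_injective _ h3 ?_⟩
  simp only [smul_add, smul_smul, mul_neg, mul_div_cancel₀ _ h3]
  linear_combination (norm := module) e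

theorem sq_inj (h2 : (2 : k) = 0) {a b : k} (h : a ^ 2 = b ^ 2) : a = b :=
  sub_eq_zero.1 (pow_eq_zero_iff two_ne_zero |>.1 (by linear_combination h + (b ^ 2 - a * b) * h2))

/-- The flag that swaps two opposite flags. -/
theorem flip (h2 : (2 : k) = 0) (h : TB T) (hS : Sw T) (h1 : T u φ) (h3 : T y η) (o1 : φ ⬝ᵥ y ≠ 0)
    (o2 : η ⬝ᵥ u ≠ 0) {c : k} (hc : c ^ 2 * φ ⬝ᵥ y = η ⬝ᵥ u) : ∃ x ρ, T x ρ ∧
      (∀ (a : k) v, φ ⬝ᵥ v = 0 → η ⬝ᵥ v = 0 → a • u + v + (ρ ⬝ᵥ (a • u + v)) • x = (a * c) • y + v) ∧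
      ∀ e : k, e • φ - ((e • φ) ⬝ᵥ x) • ρ = (e / c) • η := by
  obtain ⟨c', c1, c2⟩ := hS u φ y η h1 h3 o1 o2
  obtain rfl : c = c' := sq_inj h2 (mul_right_cancel₀ o1 (hc.trans c1.symm))
  have c0 : c ≠ 0 := fun e => o2 (by rw [← hc, e]; simp)
  refine ⟨_, _, c2, fun a v p1 p2 => ?_, fun e => ?_⟩
  · simp only [add_dotProduct, dotProduct_add, smul_dotProduct, dotProduct_smul, smul_eq_mul,
      h.orth h1, p1, p2, mul_zero, add_zero]
    match_scalars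
    · field_simp; linear_combination a * h2
    · rfl
    · field_simp
  · simp only [dotProduct_add, smul_dotProduct, dotProduct_smul, smul_eq_mul, h.orth h1, ← hc]
    match_scalars
    · field_simp; ring
    · field_simp; linear_combination (-(e * c * φ ⬝ᵥ y)) * h2

theorem flip' (h2 : (2 : k) = 0) (h : TB T) (hS : Sw T) (h1 : T u φ) (h3 : T y η) (o1 : φ ⬝ᵥ y ≠ 0)
    (o2 : η ⬝ᵥ u ≠ 0) {c a e : k} (hc : c ^ 2 * φ ⬝ᵥ y = η ⬝ᵥ u) (p1 : φ ⬝ᵥ v = 0) (p2 : η ⬝ᵥ v = 0)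
    (h4 : T (a • u + v) (e • φ)) : T ((a * c) • y + v) ((e / c) • η) := by
  obtain ⟨x, ρ, r0, r1, r2⟩ := flip h2 h hS h1 h3 o1 o2 hc
  rw [← r1 a v p1 p2, ← r2]
  exact h.conj r0 h4

/-! ### all flags are conjugate -/

/-- `B` preserves the system -/
def Au (T : V4 k → V4 k → Prop) (B : G4 k) : Prop :=
  ∀ u φ, T (B.val *ᵥ u) (φ ᵥ* (B⁻¹).val) ↔ T u φ

theorem au_tv (h : TB T) (h1 : T u φ) : Au T (tv u φ (h.orth h1)) := fun w ψ => by
  rw [tv_val, tv_inv_val, tv_mulVec, vecMul_tv]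
  refine ⟨fun a => ?_, fun a => by simpa [sub_eq_add_neg] using h.conj h1 a⟩
  simpa [h.orth h1] using h.conj' h1 a

/-- a scalar matrix -/
def sc (c : k) (hc : c ≠ 0) : G4 k :=
  ⟨c • 1, c⁻¹ • 1, by simp [smul_smul, hc], by simp [smul_smul, hc]⟩

theorem sc_mul {c : k} (hc : c ≠ 0) : (sc c hc).val *ᵥ u = c • u := by simp [sc, smul_mulVec]

theorem mul_sc {c : k} (hc : c ≠ 0) : φ ᵥ* ((sc c hc)⁻¹).val = c⁻¹ • φ := by
  simp [sc, vecMul_smul]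

theorem au_sc (h : TB T) {c : k} (hc : c ≠ 0) : Au T (sc c hc) := fun w ψ => by
  rw [sc_mul, mul_sc, h.smul_iff, smul_inv_smul₀ hc]

theorem all_of (h2 : (2 : k) = 0) (h : TS K T) (hS : Sw T) {Q : V4 k → V4 k → Prop}
    (hQ : ∀ B, Au T B → ∀ u φ, Q u φ → Q (B.val *ᵥ u) (φ ᵥ* (B⁻¹).val))
    (h0 : ∃ u φ, (T u φ ∧ Q u φ) ∧ u ≠ 0 ∧ φ ≠ 0) (h1 : T u φ) (hu : u ≠ 0) (hφ : φ ≠ 0) : Q u φ := by
  have cj : ∀ u φ w ψ, T u φ → Q w ψ → Q (w + (φ ⬝ᵥ w) • u) (ψ - (ψ ⬝ᵥ u) • φ) :=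
    fun u φ w ψ a b => by
      have := hQ _ (au_tv h.toTB a) w ψ b
      rw [tv_val, tv_inv_val, tv_mulVec, vecMul_tv] at this
      simpa [sub_eq_add_neg] using this
  obtain ⟨y, η, ⟨a1, a2⟩, a3, a4⟩ := h.xy (fun u φ => T u φ ∧ Q u φ) (fun _ _ a => a.1)
    (fun u φ w ψ a b => ⟨h.conj a b.1, cj u φ w ψ a b.2⟩) h0 u hu φ hφ
  obtain ⟨c, c1, -⟩ := hS y η u φ a1 h1 a4 a3
  have c0 : c ≠ 0 := fun e => a3 (by rw [← c1, e]; simp)
  obtain ⟨x, ρ, r0, r1, r2⟩ := flip h2 h.toTB hS a1 h1 a4 a3 c1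
  have e1 := r1 1 0 (by simp) (by simp)
  have e2 := r2 1
  simp only [one_smul, add_zero, one_mul] at e1 e2
  have := hQ _ (au_sc h.toTB (inv_ne_zero c0)) _ _ (cj x ρ y η r0 a2)
  rwa [e1, e2, sc_mul, mul_sc, inv_smul_smul₀ c0, inv_inv, one_div, smul_inv_smul₀ c0] at this

/-- a second axis and a second centre which are not incident -/
def PP (T : V4 k → V4 k → Prop) (u φ : V4 k) : Prop := ∃ χ w, T u χ ∧ T w φ ∧ χ ⬝ᵥ w = 1

/-- four axes and four centres -/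
def FF (T : V4 k → V4 k → Prop) (u φ : V4 k) : Prop := ∃ χ w, T u χ ∧ T w φ ∧ χ ⬝ᵥ w = 1 ∧
  (∀ ψ, T u ψ → ψ = 0 ∨ ψ = φ ∨ ψ = χ ∨ ψ = φ + χ) ∧ ∀ y, T y φ → y = 0 ∨ y = u ∨ y = w ∨ y = u + w

theorem PP.au {B : G4 k} (hB : Au T B) (u φ : V4 k) (h : PP T u φ) :
    PP T (B.val *ᵥ u) (φ ᵥ* (B⁻¹).val) :=
  let ⟨χ, w, a, b, c⟩ := h
  ⟨_, _, (hB u χ).2 a, (hB w φ).2 b, by rwa [conj_dot']⟩

theorem FF.au {B : G4 k} (hB : Au T B) (u φ : V4 k) (h : FF T u φ) :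
    FF T (B.val *ᵥ u) (φ ᵥ* (B⁻¹).val) := by
  obtain ⟨χ, w, a, b, c, d, e⟩ := h
  refine ⟨_, _, (hB u χ).2 a, (hB w φ).2 b, by rwa [conj_dot'], fun ψ hψ => ?_, fun y hy => ?_⟩
  · obtain ⟨ψ, rfl⟩ : ∃ ψ', ψ = ψ' ᵥ* (B⁻¹).val := ⟨ψ ᵥ* B.val, by simp⟩
    rcases d ψ ((hB _ _).1 hψ) with rfl | rfl | rfl | rfl <;> simp [add_vecMul]
  · obtain ⟨y, rfl⟩ : ∃ y', y = B.val *ᵥ y' := ⟨(B⁻¹).val *ᵥ y, by simp⟩
    rcases e y ((hB _ _).1 hy) with rfl | rfl | rfl | rfl <;> simp [mulVec_add]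

theorem FF.swap (h : FF (fun φ u => T u φ) φ u) : FF T u φ :=
  let ⟨w, χ, a, b, c, d, e⟩ := h
  ⟨χ, w, b, a, by rwa [dotProduct_comm], e, d⟩

def AllP (T : V4 k → V4 k → Prop) : Prop := ∀ u φ, T u φ → u ≠ 0 → φ ≠ 0 → PP T u φ

theorem AllP.swap (h : AllP T) : AllP fun φ u => T u φ := fun φ u a b c =>
  let ⟨χ, w, d, e, f⟩ := h u φ a c b
  ⟨w, χ, e, d, by rwa [dotProduct_comm]⟩

theorem allP (h2 : (2 : k) = 0) (h : TS K T) (hS : Sw T) (n : ¬ H20.LD.Sym T) : AllP T := fun u φ => by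
  refine all_of h2 h hS (fun _ => PP.au) ?_
  simp only [H20.LD.Sym, not_forall] at n
  obtain ⟨u, φ, w, ψ, a, b, c, d, e, f⟩ := n
  exact ⟨w, (ψ ⬝ᵥ u) • φ, ⟨h.commR a b e, ψ, (ψ ⬝ᵥ u)⁻¹ • u, b,
    by simpa using h.rescale a (inv_ne_zero f), by simp [f]⟩, d, smul_ne_zero f c⟩

theorem dot_mem (h : TS K T) (h1 : T u φ) (hu : u ≠ 0) (hφ : φ ≠ 0) (a : T u χ) (b : T w φ) :
    χ ⬝ᵥ w ∈ K :=
  h.max h1 (h.commL a b (h.orth h1)) hu hφ

/-- the first case of Lemma K holds for all opposite pairs -/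
def Fst (T : V4 k → V4 k → Prop) : Prop := ∀ u φ w ψ, T u φ → T w ψ → φ ⬝ᵥ w ≠ 0 → ψ ⬝ᵥ u ≠ 0 →
  ∀ χ, T u χ → χ ⬝ᵥ w = 0 ∨ χ ⬝ᵥ w = φ ⬝ᵥ w

theorem lam_of (h : TS K T) (hP : AllP T) (f1 : Fst T)
    (f2 : Fst fun φ u => T u φ) : Lam K T := fun u φ y η h1 h3 => .inl (by
  rcases eq_or_ne (φ ⬝ᵥ y) 0 with o1 | o1
  · simp [o1]
  rcases eq_or_ne (η ⬝ᵥ u) 0 with o2 | o2
  · simp [o2]
  obtain ⟨χ, w, a, b, c⟩ := hP u φ h1 (right_ne_of_dot o2) (left_ne_of_dot o1)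
  obtain ⟨χ, a, c, d⟩ : ∃ χ, T u χ ∧ χ ⬝ᵥ w = 1 ∧ χ ⬝ᵥ y = 0 := (f1 u φ y η h1 h3 o1 o2 χ a).elim
    (fun e => ⟨χ, a, c, e⟩) fun e => ⟨χ - φ, h.subR a h1, by simp [c, h.orth b], by simp [e]⟩
  obtain ⟨w, b, c, e⟩ : ∃ w, T w φ ∧ χ ⬝ᵥ w = 1 ∧ η ⬝ᵥ w = 0 := (f2 φ u η y h1 h3
    (by rwa [dotProduct_comm]) (by rwa [dotProduct_comm]) w b).elim
    (fun e => ⟨w, b, c, by rwa [dotProduct_comm]⟩) fun e => ⟨w - u, h.subL b h1,
      by simp [c, h.orth a], by simp [dotProduct_comm η, e]⟩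
  simpa [c, mul_comm] using dot_mem h h3 (right_ne_of_dot o1) (left_ne_of_dot o2)
    (h.commR a h3 d) (h.commL b h3 e))

/-- closure under products of three commuting transvections -/
def Tri (T : V4 k → V4 k → Prop) : Prop := ∀ (x ρ : Fin 3 → V4 k) (v ε : V4 k), (∀ i, T (x i) (ρ i)) →
  (∀ i j, ρ i ⬝ᵥ x j = 0) → ε ⬝ᵥ v = 0 →
  (∀ i j, x 0 i * ρ 0 j + x 1 i * ρ 1 j + x 2 i * ρ 2 j = v i * ε j) → T v ε

theorem Tri.swap (h : Tri T) : Tri fun φ u => T u φ := fun x ρ v ε a b c d =>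
  h ρ x ε v a (fun i j => (dotProduct_comm _ _).trans (b j i)) ((dotProduct_comm _ _).trans c)
    fun i j => by simpa only [mul_comm] using d j i

theorem tri (G : Subgroup (G4 k)) : Tri (TV G) := fun x ρ v ε a b c d =>
  ⟨c, _, G.mul_mem (G.mul_mem (a 0).mem (a 1).mem) (a 2).mem, by
    have : vecMulVec v ε = vecMulVec (x 0) (ρ 0) + vecMulVec (x 1) (ρ 1) + vecMulVec (x 2) (ρ 2) := by
      ext i j; exact (d i j).symm
    simp [tv, mul_add, add_mul, vecMulVec_mul_vecMulVec, b, add_assoc, this]⟩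

section two
variable {L : Subfield k} (h2 : (2 : k) = 0) (h : TS K T) (hS : Sw T) (h1 : T u (α + ε))
  (h3 : T y η) (o1 : α ⬝ᵥ y ≠ 0) (o2 : η ⬝ᵥ u ≠ 0) (e2 : ε ⬝ᵥ y = 0)
  (hA : ∀ χ, T u χ ↔ ∃ d ∈ L, χ = d ^ 2 • α + d • ε)
include h2 h hS h1 h3 o1 o2 e2 hA

/-- the double flip -/
theorem dbl {a d : k} (hd : d ∈ L) (d0 : d ≠ 0) (p1 : α ⬝ᵥ v = 0) (p2 : ε ⬝ᵥ v = 0) (p3 : η ⬝ᵥ v = 0)
    (h4 : T (a • u + v) (α + ε)) : T ((a * d) • u + v) (d • α + ε) := by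
  have o3 : (α + ε) ⬝ᵥ y ≠ 0 := by simpa [e2] using o1
  obtain ⟨c, c1, -⟩ := hS _ _ _ _ h1 h3 o3 o2
  have c0 : c ≠ 0 := fun e => o2 (by rw [← c1, e]; simp)
  have := flip' h2 h.toTB hS h3 ((hA _).2 ⟨d, hd, rfl⟩) o2 (by simp [e2, d0, o1]) (c := d / c)
    (by rw [← c1]; simp only [add_dotProduct, smul_dotProduct, e2, smul_eq_mul]; field_simp; ring) p3
    (by simp [p1, p2]) (flip' h2 h.toTB hS h1 h3 o3 o2 (a := a) (e := 1) c1 (by simp [p1, p2]) p3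
      (by rwa [one_smul]))
  convert this using 1
  · congr 2; field_simp
  · match_scalars <;> field_simp

variable (hK : Two K) (hL : ¬ Two L)
include hK hL

theorem zero_of (p1 : α ⬝ᵥ v = 0) (p2 : ε ⬝ᵥ v = 0) (p3 : η ⬝ᵥ v = 0) (h4 : T v (α + ε)) : v = 0 := by
  by_contra v0
  simp only [Two, not_forall, not_or] at hL
  obtain ⟨d, hd, d0, d1⟩ := hL
  have m : ∀ d ∈ L, d ≠ 0 → T v (d • α + ε) := fun d hd d0 => by
    simpa using dbl h2 h hS h1 h3 o1 o2 e2 hA (a := 0) hd d0 p1 p2 p3 (by simpa using h4)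
  have m1 := m (d + 1) (add_mem hd (one_mem _)) fun e => d1 (by linear_combination e - h2)
  refine (hK d (h.maxR (φ := α) ?_ ?_ v0 (left_ne_of_dot o1))).elim d0 d1
  · simpa [add_smul] using h.subR m1 (m d hd d0)
  · simpa [add_smul, add_assoc] using h.subR m1 h4

variable (hP : AllP T) (hT : Tri T) (e0 : ε ≠ 0) (e1 : ε ⬝ᵥ u = 0)
include hP hT e0 e1

theorem eq_of (p1 : α ⬝ᵥ w = 0) (p2 : ε ⬝ᵥ w = 0) (h4 : T w (α + ε)) : w = 0 ∨ w = u := by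
  have e3 : α ⬝ᵥ u = 0 := by simpa [e1] using h.orth h1
  have o3 : (α + ε) ⬝ᵥ y ≠ 0 := by simpa [e2] using o1
  obtain ⟨a, v, rfl, p3⟩ : ∃ (a : k) (v : V4 k), w = a • u + v ∧ η ⬝ᵥ v = 0 :=
    ⟨η ⬝ᵥ w / η ⬝ᵥ u, w - (η ⬝ᵥ w / η ⬝ᵥ u) • u, by simp, by simp [o2]⟩
  replace p1 : α ⬝ᵥ v = 0 := by simpa [e3] using p1
  replace p2 : ε ⬝ᵥ v = 0 := by simpa [e1] using p2
  suffices v0 : v = 0 by
    rw [v0, add_zero] at h4 ⊢
    rcases hK a (h.max h1 h4 (right_ne_of_dot o2) (left_ne_of_dot o3)) with rfl | rfl <;> simp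
  by_contra v0
  have z := fun v => zero_of (v := v) h2 h hS h1 h3 o1 o2 e2 hA hK hL
  simp only [Two, not_forall, not_or] at hL
  obtain ⟨d, hd, d0, d1⟩ := hL
  have m := fun d hd d0 => dbl h2 h hS h1 h3 o1 o2 e2 hA (d := d) hd d0 p1 p2 p3 h4
  have m1 := m (d + 1) (add_mem hd (one_mem _)) fun e => d1 (by linear_combination e - h2)
  have t : T v ε := hT ![a • u + v, (a * d) • u + v, (a * (d + 1)) • u + v]
    ![α + ε, d • α + ε, (d + 1) • α + ε] v ε (fun i => by fin_cases i; exacts [h4, m d hd d0, m1])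
    (fun i j => by fin_cases i <;> fin_cases j <;> simp [e1, e3, p1, p2]) p2 fun i j => by
      simp only [cons_val_zero, cons_val_one, cons_val_two, Pi.add_apply, Pi.smul_apply, smul_eq_mul,
        Nat.succ_eq_add_one, tail_cons, head_cons]
      linear_combination (a * u i * α j * (1 + d + d ^ 2) + a * u i * ε j * (1 + d) +
        v i * α j * (1 + d) + v i * ε j) * h2
  obtain ⟨χ, x, t1, t2, t3⟩ := hP v ε t v0 e0
  obtain ⟨r, s, q, rfl⟩ := span3 e0 e1 e2 p2 (fun r s q e => by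
    have a1 := congrArg (η ⬝ᵥ ·) e
    have a2 := congrArg (α ⬝ᵥ ·) e
    simp [o1, o2, p1, p3, e3, h.orth h3] at a1 a2
    simpa [a1, a2, v0] using e) (h.orth t2)
  rcases eq_or_ne (χ ⬝ᵥ u) 0 with c1 | c1
  · have c2 : χ ⬝ᵥ y ≠ 0 := fun e => by simp [c1, e, h.orth t1] at t3
    obtain ⟨c, c3, -⟩ := hS _ _ _ _ h3 h1 o2 o3
    have c0 : c ≠ 0 := fun e => o3 (by rw [← c3, e]; simp)
    have := flip' h2 h.toTB hS h3 h1 o2 o3 (v := (χ ⬝ᵥ y) • v) (a := 0) (e := 1) c3 (by simp [p3])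
      (by simp [p1, p2]) (by simpa using h.commL t1 h3 p3)
    rw [zero_mul, zero_smul, zero_add, ← h.smul_iff] at this
    simpa [c0, c2, v0] using z _ (by simp [p1]) (by simp [p2]) (by simp [p3]) this
  · simpa [c1, v0] using z _ (by simp [p1]) (by simp [p2]) (by simp [p3])
      (h.commL t1 h1 (by simp [p1, p2]))

theorem ff_of : FF T u (α + ε) := by
  have o3 : (α + ε) ⬝ᵥ y ≠ 0 := by simpa [e2] using o1
  have u0 := right_ne_of_dot o2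
  have f0 := left_ne_of_dot o3
  have z := fun w => eq_of (w := w) h2 h hS h1 h3 o1 o2 e2 hA hK hL hP hT e0 e1
  have s : ∀ w, T w (α + ε) → ε ⬝ᵥ w = α ⬝ᵥ w := fun w a => by
    have := h.orth a
    rw [add_dotProduct] at this
    linear_combination this - (α ⬝ᵥ w) * h2
  obtain ⟨χ, w, a, b, c⟩ := hP _ _ h1 u0 f0
  have z' : ∀ x, T x (α + ε) → χ ⬝ᵥ x = 0 → x = 0 ∨ x = u := fun x t e => by
    obtain ⟨d, -, rfl⟩ := (hA χ).1 a
    simp only [add_dotProduct, smul_dotProduct, smul_eq_mul, s w b, s x t] at c e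
    have : α ⬝ᵥ x = 0 := by linear_combination (α ⬝ᵥ w) * e - (α ⬝ᵥ x) * c
    exact z x this ((s x t).trans this) t
  refine ⟨χ, w, a, b, c, fun ψ t => ?_, fun x t => ?_⟩
  · have q := hK _ (dot_mem h h1 u0 f0 t b)
    obtain ⟨d, -, rfl⟩ := (hA χ).1 a
    obtain ⟨f, -, rfl⟩ := (hA ψ).1 t
    simp only [add_dotProduct, smul_dotProduct, smul_eq_mul, s w b] at c q
    rcases q with q | q
    · have : f * (f - 1) = 0 := by
        linear_combination (d ^ 2 + d) * q - (f ^ 2 + f) * c - f * h2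
      rcases mul_eq_zero.1 this with rfl | e
      · simp
      · simp [sub_eq_zero.1 e]
    · have : (f - d) * (f - (d + 1)) = 0 := by
        linear_combination (d ^ 2 + d) * q - (f ^ 2 + f) * c + (d ^ 2 + d - f * d - f) * h2
      rcases mul_eq_zero.1 this with e | e <;> rw [sub_eq_zero.1 e]
      · simp
      · right; right; right
        linear_combination (norm := module) h2 • d • α
  · rcases hK _ (dot_mem h h1 u0 f0 a t) with q | q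
    · rcases z' x t q with e | e <;> simp [e]
    · rcases z' _ (h.subL t b) (by simp [q, c]) with e | e
      · simp [sub_eq_zero.1 e]
      · simp [sub_eq_iff_eq_add.1 e]

end two

theorem fst_or (h2 : (2 : k) = 0) (h : TS K T) (hS : Sw T) (hK : Two K) (hP : AllP T) (hT : Tri T)
    (hL : LK T) : Fst T ∨ ∃ u φ, (T u φ ∧ FF T u φ) ∧ u ≠ 0 ∧ φ ≠ 0 :=
  or_iff_not_imp_right.2 fun n u φ y η h1 h3 o1 o2 => (hL u φ y η h1 h3 o1 o2).resolve_right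
    fun ⟨_, α, ε, a, b, c, d, e, f, _⟩ => n ⟨u, φ, ⟨h1, by
      subst e
      exact ff_of h2 h hS h1 h3 (by simpa [d] using o1) o2 d f hK a hP hT b c⟩,
      right_ne_of_dot o2, left_ne_of_dot o1⟩

/-! ### the Sylow subgroup -/

section grp
variable {G : Subgroup (G4 k)} {g : G4 k} {n : ℕ}

theorem eq_one_of_pow (h2 : (2 : k) = 0) {c : k} (h : c ^ 2 ^ n = 1) : c = 1 := by
  induction n with
  | zero => simpa using h
  | succ n ih => exact ih (sq_inj h2 (by rw [← pow_mul, ← pow_succ, h, one_pow]))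

theorem fix_of (h2 : (2 : k) = 0) (hg : g ^ 2 ^ n = 1) (hu : u ≠ 0) {c : k}
    (h : g.val *ᵥ u = c • u) : g.val *ᵥ u = u := by
  have : ∀ m : ℕ, (g ^ m).val *ᵥ u = c ^ m • u := fun m => by
    induction m with
    | zero => simp
    | succ m ih => rw [pow_succ, Units.val_mul, ← mulVec_mulVec, h, mulVec_smul, ih, smul_smul,
        pow_succ']
  rw [h, eq_one_of_pow h2 (n := n) (c := c) (smul_left_injective k hu (by simpa [hg] using (this (2 ^ n)).symm)),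
    one_smul]

theorem fix_of' (h2 : (2 : k) = 0) (hg : g ^ 2 ^ n = 1) (hφ : φ ≠ 0) {c : k}
    (h : φ ᵥ* g.val = c • φ) : φ ᵥ* g.val = φ := by
  have : ∀ m : ℕ, φ ᵥ* (g ^ m).val = c ^ m • φ := fun m => by
    induction m with
    | zero => simp
    | succ m ih => rw [pow_succ', Units.val_mul, ← vecMul_vecMul, h, smul_vecMul, ih, smul_smul,
        pow_succ']
  rw [h, eq_one_of_pow h2 (n := n) (c := c) (smul_left_injective k hφ (by simpa [hg] using (this (2 ^ n)).symm)),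
    one_smul]

theorem fix_of_comm (h2 : (2 : k) = 0) (hg : g ^ 2 ^ n = 1) (hu : u ≠ 0) (hφ : φ ≠ 0)
    {o : φ ⬝ᵥ u = 0} (h : g * tv u φ o = tv u φ o * g) : g.val *ᵥ u = u ∧ φ ᵥ* g.val = φ := by
  have e : vecMulVec (g.val *ᵥ u) φ = vecMulVec u (φ ᵥ* g.val) := by
    simpa [tv, mul_add, add_mul, mul_vecMulVec, vecMulVec_mul] using congrArg Units.val h
  obtain ⟨a, ha⟩ := exists_dot_one hφ
  obtain ⟨b, hb⟩ := exists_dot_one hu
  constructor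
  · refine fix_of h2 hg hu (c := (φ ᵥ* g.val) ⬝ᵥ a) ?_
    simpa [vecMulVec_mulVec, dotProduct_comm φ, ha] using congrArg (· *ᵥ a) e
  · refine fix_of' h2 hg hφ (c := b ⬝ᵥ (g.val *ᵥ u)) ?_
    simpa [vecMul_vecMulVec, hb] using (congrArg (b ᵥ* ·) e).symm

theorem vecMul_inv (h : φ ᵥ* g.val = φ) : φ ᵥ* (g⁻¹).val = φ := by
  simpa using (congrArg (· ᵥ* (g⁻¹).val) h).symm

theorem eq_tv (h2 : (2 : k) = 0) (hG : g ∈ G) (hg : g ^ 2 ^ n = 1) (h1 : TV G u φ) (hu : u ≠ 0)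
    (a : TV G u χ) (b : TV G w φ) (c : χ ⬝ᵥ w = 1)
    (d : ∀ ψ, TV G u ψ → ψ = 0 ∨ ψ = φ ∨ ψ = χ ∨ ψ = φ + χ) (f : FF (TV G) u χ) (g1 : g.val *ᵥ u = u)
    (g2 : φ ᵥ* g.val = φ) (g3 : g.val *ᵥ w = w) (g4 : χ ᵥ* g.val = χ) : g = 1 ∨ g = tv u φ h1.1 := by
  obtain ⟨ψ, y, f1, f2, f3, -, f4⟩ := f
  have y1 : φ ⬝ᵥ y = 1 := by
    rcases d ψ f1 with rfl | rfl | rfl | rfl <;> revert f3 <;> simp [f2.1]
  have kk : ∀ η x, η ᵥ* g.val = η → η ⬝ᵥ (g.val *ᵥ x) = η ⬝ᵥ x := fun η x e => by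
    rw [dotProduct_mulVec, e]
  obtain ⟨μ, m0, m1, m2, m3⟩ := exists_ker_three u w y
  rw [dotProduct_comm] at m1 m2 m3
  have sp := fun x => span3 (x := x) m0 m1 m2 m3 fun r s t e => by
    have a1 := congrArg (χ ⬝ᵥ ·) e
    have a2 := congrArg (φ ⬝ᵥ ·) e
    simp [a.1, b.1, c, f2.1, h1.1, y1] at a1 a2
    simpa [a1, a2, hu] using e
  have m4 : μ ⬝ᵥ (g.val *ᵥ y) = 0 := by
    have := kk φ y g2
    rcases f4 _ (vecMul_inv g4 ▸ f2.conj hG) with e | e | e | e <;> simp [e, m1, m3]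
  obtain ⟨v, hv⟩ := exists_dot_one m0
  rw [dotProduct_comm] at hv
  have m5 : μ ᵥ* g.val = μ := fix_of' h2 hg m0 (c := μ ⬝ᵥ (g.val *ᵥ v)) (by
    refine dotProduct_eq _ _ fun x => ?_
    obtain ⟨r, s, t, e⟩ := sp (x - (μ ⬝ᵥ x) • v) (by simp [hv])
    rw [← dotProduct_mulVec, smul_dotProduct, sub_eq_iff_eq_add.1 e]
    simp [mulVec_add, mulVec_smul, g1, g3, m1, m2, m3, m4, hv, mul_comm])
  obtain ⟨l, hl⟩ := exists_dot_one hu
  have e : g.val = 1 + vecMulVec u (l ᵥ* g.val - l) := by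
    refine ext_of_mulVec_single fun i => ?_
    generalize (Pi.single i 1 : V4 k) = x
    obtain ⟨r, s, t, e⟩ := sp (g.val *ᵥ x - x) (by simp [kk μ x m5])
    have a1 := congrArg (χ ⬝ᵥ ·) e
    have a2 := congrArg (φ ⬝ᵥ ·) e
    simp [a.1, b.1, c, f2.1, h1.1, y1, kk χ x g4, kk φ x g2] at a1 a2
    rw [← a1, ← a2, zero_smul, zero_smul, add_zero, add_zero] at e
    rw [tv_mulVec, sub_dotProduct, ← dotProduct_mulVec, ← dotProduct_sub, e, dotProduct_smul, hl,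
      smul_eq_mul, mul_one, ← e, add_sub_cancel]
  have q : (l ᵥ* g.val - l) ⬝ᵥ w = 0 := by rw [sub_dotProduct, ← dotProduct_mulVec, g3, sub_self]
  rcases d _ ⟨by rw [sub_dotProduct, ← dotProduct_mulVec, g1, sub_self], g, hG, e⟩ with
    z | z | z | z <;> rw [z] at e q
  · exact .inl (Units.ext (by simpa using e))
  · exact .inr (Units.ext e)
  · simp [c] at q
  · simp [c, b.1] at q

theorem tv_sq (h2 : (2 : k) = 0) (o : φ ⬝ᵥ u = 0) : tv u φ o * tv u φ o = 1 := Units.ext (by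
  have : vecMulVec u φ + vecMulVec u φ = 0 := by rw [← two_smul k, h2, zero_smul]
  simp [tv, mul_add, add_mul, vecMulVec_mul_vecMulVec, o, add_assoc, this])

theorem syl [Finite G] (h2 : (2 : k) = 0) (h1 : TV G u φ) (hu : u ≠ 0) (hφ : φ ≠ 0)
    (hF : ∀ χ, TV G u χ → χ ≠ 0 → FF (TV G) u χ) :
    ∃ S : Sylow 2 G, Nonempty ((S : Subgroup G) ≃* DihedralGroup 4) := by
  have := Fact.mk Nat.prime_two
  obtain ⟨χ, w, a, b, c, d, f⟩ := hF φ h1 hφ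
  have c0 : χ ≠ 0 := left_ne_of_dot (c ▸ one_ne_zero)
  have w0 : w ≠ 0 := right_ne_of_dot (c ▸ one_ne_zero)
  let A : G := ⟨_, a.mem⟩
  let B : G := ⟨_, b.mem⟩
  let t : G := ⟨_, h1.mem⟩
  have AA : A * A = 1 := Subtype.ext (tv_sq h2 a.1)
  have BB : B * B = 1 := Subtype.ext (tv_sq h2 b.1)
  have tt : t * t = 1 := Subtype.ext (tv_sq h2 h1.1)
  have A1 : A ≠ 1 := fun e => ((tv_eq_one_iff a.1).1 (congrArg Subtype.val e)).elim hu c0
  have B1 : B ≠ 1 := fun e => ((tv_eq_one_iff b.1).1 (congrArg Subtype.val e)).elim w0 hφ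
  have t1 : t ≠ 1 := fun e => ((tv_eq_one_iff h1.1).1 (congrArg Subtype.val e)).elim hu hφ
  have AB : A * B = B * A * t := Subtype.ext (Units.ext (by
    simp [A, B, t, tv, mul_add, add_mul, vecMulVec_mul_vecMulVec, a.1, c, h1.1]
    abel))
  have At : A * t = t * A := Subtype.ext (Units.ext (by
    simp [A, t, tv, mul_add, add_mul, vecMulVec_mul_vecMulVec, a.1, h1.1]
    abel))
  have Bt : B * t = t * B := Subtype.ext (Units.ext (by
    simp [B, t, tv, mul_add, add_mul, vecMulVec_mul_vecMulVec, b.1, h1.1]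
    abel))
  have q : A * B * (A * B) = t := by
    nth_rewrite 2 [AB]
    rw [← mul_assoc, ← mul_assoc, mul_assoc A, BB, mul_one, AA, one_mul]
  have o : orderOf (A * B) = 4 := orderOf_eq_prime_pow (p := 2) (n := 1)
    (by rw [pow_one, sq, q]; exact t1) (by
      rw [show 2 ^ (1 + 1) = 2 * 2 from rfl, pow_mul, sq (A * B), q, sq, tt])
  obtain ⟨e⟩ := Agent.S0206.result A B (orderOf_eq_prime (by rw [sq, AA]) A1)
    (orderOf_eq_prime (by rw [sq, BB]) B1) fun e => t1 (by rw [← q, e, BB, mul_one])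
  rw [o] at e
  set D := Subgroup.closure ({A, B} : Set G)
  have mA : A ∈ D := Subgroup.subset_closure (by simp)
  have mB : B ∈ D := Subgroup.subset_closure (by simp)
  have mt : t ∈ D := q ▸ mul_mem (mul_mem mA mB) (mul_mem mA mB)
  obtain ⟨S, hS⟩ := (IsPGroup.of_card (p := 2) (n := 3) (G := D)
    (by rw [Nat.card_congr e.toEquiv, DihedralGroup.nat_card]; rfl)).exists_le_sylow
  have pw : ∀ g ∈ S, ∃ n, (g : G).1 ^ 2 ^ n = 1 := fun g hg =>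
    (S.2 ⟨g, hg⟩).imp fun n e => congrArg (fun x : S.1 => x.1.1) e
  have key : ∀ g ∈ S, (g : G).1.val *ᵥ u = u → φ ᵥ* g.1.val = φ → g.1.val *ᵥ w = w →
      χ ᵥ* g.1.val = χ → g = 1 ∨ g = t := fun g hg g1 g2 g3 g4 =>
    let ⟨_, e⟩ := pw g hg
    (eq_tv h2 g.2 e h1 hu a b c d (hF χ a c0) g1 g2 g3 g4).imp Subtype.ext Subtype.ext
  have fx : ∀ g ∈ S, ∀ {x η} {o : η ⬝ᵥ x = 0} (m : tv x η o ∈ G), x ≠ 0 → η ≠ 0 →
      g * ⟨_, m⟩ = ⟨_, m⟩ * g → (g : G).1.val *ᵥ x = x ∧ η ᵥ* g.1.val = η := fun g hg _ _ o _ x0 e0 e =>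
    let ⟨_, p⟩ := pw g hg
    fix_of_comm h2 p x0 e0 (o := o) (congrArg Subtype.val e)
  have : Nontrivial S.1 := ⟨⟨t, hS mt⟩, 1, fun e => t1 (congrArg Subtype.val e)⟩
  have := S.2.center_nontrivial
  obtain ⟨⟨z, hz⟩, z1⟩ := exists_ne (1 : Subgroup.center S.1)
  have zc : ∀ g ∈ S, g * z = z * g := fun g hg =>
    congrArg Subtype.val (Subgroup.mem_center_iff.1 hz ⟨g, hg⟩)
  have z2 := fx z z.2 a.mem hu c0 (zc A (hS mA)).symm
  have z3 := fx z z.2 b.mem w0 hφ (zc B (hS mB)).symm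
  have z4 := (key z z.2 z2.1 z3.2 z3.1 z2.2).resolve_left fun e => z1 (Subtype.ext (Subtype.ext e))
  refine ⟨S, ⟨(MulEquiv.subgroupCongr (le_antisymm (fun g hg => ?_) hS)).trans e⟩⟩
  have k2 : ∀ g ∈ S, (g : G).1.val *ᵥ w = w → g ∈ D := fun g hg g3 => by
    obtain ⟨g1, g2⟩ := fx g hg h1.mem hu hφ (show g * t = t * g from z4 ▸ zc g hg)
    have k1 : ∀ g ∈ S, g = 1 ∨ g = t → g ∈ D := by
      rintro _ - (rfl | rfl)
      exacts [one_mem _, mt]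
    have m := a.conj (inv_mem g.2)
    rw [inv_inv, show (g.1⁻¹).val *ᵥ u = u by simpa using (congrArg ((g.1⁻¹).val *ᵥ ·) g1).symm] at m
    have m1 : (χ ᵥ* g.1.val) ⬝ᵥ w = 1 := by rw [← dotProduct_mulVec, g3, c]
    rcases d _ m with p | p | p | p
    · simp [p] at m1
    · simp [p, b.1] at m1
    · exact k1 g hg (key g hg g1 g2 g3 p)
    · refine (mul_mem_cancel_right mB).1 (k1 _ (mul_mem hg (hS mB)) (key _ (mul_mem hg (hS mB))
        ?_ ?_ ?_ ?_)) <;> simp [B, ← mulVec_mulVec, ← vecMul_vecMul, tv_val, tv_mulVec, vecMul_tv,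
          g1, g2, g3, p, h1.1, b.1, c]
      linear_combination (norm := module) h2 • φ
  obtain ⟨g1, g2⟩ := fx g hg h1.mem hu hφ (show g * t = t * g from z4 ▸ zc g hg)
  have m := b.conj g.2
  rw [vecMul_inv g2] at m
  rcases f _ m with p | p | p | p
  · exact absurd p (mulVec_ne _ w0)
  · have := congrArg ((g.1⁻¹).val *ᵥ ·) (p.trans g1.symm)
    simp at this
    simp [this, a.1] at c
  · exact k2 g hg p
  · refine (mul_mem_cancel_left mA).1 (k2 _ (mul_mem (hS mA) hg) ?_)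
    simp [A, ← mulVec_mulVec, tv_val, tv_mulVec, p, a.1, c]
    linear_combination (norm := module) h2 • u

end grp

theorem jobTVD : JobTVD.{u} := fun k _ _ G _ K _ _ h h2 hK hS l1 l2 n1 n2 => by
  have hP := allP h2 h hS n1
  obtain ⟨u, φ, h1, hu, hφ⟩ := h.ne
  refine syl h2 h1 hu hφ fun χ a => all_of h2 h hS (fun _ => FF.au) ?_ a hu
  rcases fst_or h2 h hS hK hP (tri G) l1 with f1 | f1
  · rcases fst_or h2 h.swap (hS.swap h.toTB) hK hP.swap (tri G).swap l2 with f2 | ⟨a, b, c, d, e⟩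
    exacts [absurd (lam_of h hP f1 f2) n2, ⟨b, a, ⟨c.1, c.2.swap⟩, e, d⟩]
  · exact f1

end H37.TVD
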