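import Cfsg.Agent.H37.LDTVD

/-! LD4 (blueprints/LD4.md): the job `JobTVK`. -/

set_option autoImplicit false
set_option linter.unusedSectionVars false

namespace H37.TVK

open Cfsg Matrix H20.LD H37.TVD

universe u

variable {k : Type u} [Field k] {T : V4 k → V4 k → Prop} {K : Subfield k}
  {u w x φ ψ χ η α ε : V4 k}

theorem mem_iff_pow (L : Subfield k) [Finite L] (x : k) : x ^ Nat.card L = x ↔ x ∈ L := by
  have := Fintype.ofFinite L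
  rw [Nat.card_eq_fintype_card]
  refine ⟨fun h => ?_, fun h => congrArg Subtype.val (FiniteField.pow_card (⟨x, h⟩ : L))⟩
  have hs : (Polynomial.X ^ Fintype.card L - Polynomial.X : Polynomial L).Splits := by
    rw [Polynomial.splits_iff_card_roots, FiniteField.roots_X_pow_card_sub_X,
      FiniteField.X_pow_card_sub_X_natDegree_eq L Fintype.one_lt_card]
    simp
  obtain ⟨t, rfl⟩ := hs.mem_range_of_isRoot (FiniteField.X_pow_card_sub_X_ne_zero L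
    Fintype.one_lt_card) (i := algebraMap L k) (x := x) (by simp [h])
  exact t.2

section opp
variable (h2 : (2 : k) = 0) (h : TB T) (hS : Sw T) (h1 : T u φ) (h3 : T w ψ) (o1 : φ ⬝ᵥ w ≠ 0)
  (o2 : ψ ⬝ᵥ u ≠ 0)
include h2 h hS h1 h3 o1 o2

/-- The action of the flip on the axes of `u`. -/
theorem flipA {c a : k} (hc : c ^ 2 * φ ⬝ᵥ w = ψ ⬝ᵥ u) (h4 : T u χ) (ha : χ ⬝ᵥ w = a * φ ⬝ᵥ w) :
    T w (c • χ + (a * c) • φ + a • ψ) := by
  obtain ⟨c', c1, c2⟩ := hS u φ w ψ h1 h3 o1 o2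
  obtain rfl : c = c' := sq_inj h2 (mul_right_cancel₀ o1 (hc.trans c1.symm))
  have c0 : c ≠ 0 := fun e => o2 (by rw [← hc, e]; simp)
  have := h.conj c2 h4
  simp only [add_dotProduct, dotProduct_add, smul_dotProduct, dotProduct_smul, smul_eq_mul,
    h.orth h1, h.orth h4, mul_zero, add_zero, zero_add, inv_mul_cancel₀ o2, one_smul, ha] at this
  rw [← add_assoc, ← two_smul k u, h2, zero_smul, zero_add, h.smul_iff] at this
  convert this using 1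
  rw [← hc]
  match_scalars
  · ring
  · field_simp; linear_combination a * h2
  · field_simp; linear_combination a * h2

theorem exists_sq (h4 : T u χ) : ∃ d : k, χ ⬝ᵥ w = d ^ 2 * φ ⬝ᵥ w := by
  rcases eq_or_ne (χ ⬝ᵥ w) 0 with e | e
  · exact ⟨0, by simp [e]⟩
  obtain ⟨c, c1, -⟩ := hS u φ w ψ h1 h3 o1 o2
  obtain ⟨c', c2, -⟩ := hS u χ w ψ h4 h3 e o2
  have c0 : c' ≠ 0 := fun e => o2 (by rw [← c2, e]; simp)
  exact ⟨c / c', by field_simp; linear_combination c2 - c1⟩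

theorem dot_flip {c a : k} (h4 : T u χ) : (c • χ + (a * c) • φ + a • ψ) ⬝ᵥ u = a * ψ ⬝ᵥ u := by
  simp [h.orth h1, h.orth h4]

theorem mulA {a d : k} {χ' : V4 k} (h4 : T u χ) (h5 : T u χ') (ha : χ ⬝ᵥ w = a * φ ⬝ᵥ w)
    (hd : χ' ⬝ᵥ w = d ^ 2 * φ ⬝ᵥ w) (d0 : d ≠ 0) : T u (d • χ + (a * d) • φ + a • χ') := by
  obtain ⟨c, c1, -⟩ := hS u φ w ψ h1 h3 o1 o2
  have c0 : c ≠ 0 := fun e => o2 (by rw [← c1, e]; simp)
  have := flipA h2 h hS h3 h5 o2 (by simp [hd, d0, o1]) (c := d / c) (by rw [hd, ← c1]; field_simp)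
    (flipA h2 h hS h1 h3 o1 o2 c1 h4 ha) (dot_flip h2 h hS h1 h3 o1 o2 h4)
  convert this using 1
  match_scalars
  · field_simp
  · field_simp
  · ring
  · linear_combination (-(a * d / c)) * h2

theorem invA {d : k} (h4 : T u χ) (hd : χ ⬝ᵥ w = d ^ 2 * φ ⬝ᵥ w) (d0 : d ≠ 0) :
    ∃ χ', T u χ' ∧ χ' ⬝ᵥ w = d⁻¹ ^ 2 * φ ⬝ᵥ w := by
  obtain ⟨c, c1, -⟩ := hS u φ w ψ h1 h3 o1 o2
  have c0 : c ≠ 0 := fun e => o2 (by rw [← c1, e]; simp)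
  have o3 : χ ⬝ᵥ w ≠ 0 := by simp [hd, d0, o1]
  have m := flipA h2 h hS h4 h3 o3 o2 (c := c / d) (a := d⁻¹ ^ 2) (by rw [hd, ← c1]; field_simp) h1
    (by rw [hd]; field_simp)
  exact ⟨_, flipA h2 h hS h3 h1 o2 o1 (c := c⁻¹) (by rw [← c1]; field_simp) m
    (dot_flip h2 h hS h4 h3 o3 o2 h1), dot_flip h2 h hS h3 h1 o2 o1 m⟩

/-- the square roots of the ratios -/
def fld : Subfield k where
  carrier := {d | ∃ χ, T u χ ∧ χ ⬝ᵥ w = d ^ 2 * φ ⬝ᵥ w}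
  mul_mem' := by
    rintro f d ⟨χ, a1, a2⟩ ⟨χ', b1, b2⟩
    rcases eq_or_ne d 0 with rfl | d0
    · exact ⟨0, h.zeroR h1, by simp⟩
    exact ⟨_, mulA h2 h hS h1 h3 o1 o2 a1 b1 a2 b2 d0, by
      simp only [add_dotProduct, smul_dotProduct, smul_eq_mul, a2, b2]
      linear_combination (d * f ^ 2 * φ ⬝ᵥ w) * h2⟩
  one_mem' := ⟨φ, h1, by simp⟩
  add_mem' := by
    rintro f d ⟨χ, a1, a2⟩ ⟨χ', b1, b2⟩
    exact ⟨_, h.addR a1 b1, by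
      rw [add_dotProduct, a2, b2]; linear_combination (-(f * d * φ ⬝ᵥ w)) * h2⟩
  zero_mem' := ⟨0, h.zeroR h1, by simp⟩
  neg_mem' := fun ⟨χ, a1, a2⟩ => ⟨χ, a1, by rwa [neg_sq]⟩
  inv_mem' := by
    rintro d ⟨χ, a1, a2⟩
    rcases eq_or_ne d 0 with rfl | d0
    · exact ⟨0, h.zeroR h1, by simp⟩
    exact invA h2 h hS h1 h3 o1 o2 a1 a2 d0

end opp

theorem lk (h2 : (2 : k) = 0) (hK : Two K) (h : TS K T) (hS : Sw T) : LK T := by
  intro u φ w ψ h1 h3 o1 o2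
  have u0 := right_ne_of_dot o2
  have fA := fun c a χ => flipA (c := c) (a := a) (χ := χ) h2 h.toTB hS h1 h3 o1 o2
  have sq := fun χ => exists_sq (χ := χ) h2 h.toTB hS h1 h3 o1 o2
  obtain ⟨c, c1, -⟩ := hS u φ w ψ h1 h3 o1 o2
  have c0 : c ≠ 0 := fun e => o2 (by rw [← c1, e]; simp)
  refine or_iff_not_imp_left.2 fun n => ?_
  push Not at n
  obtain ⟨χ₀, x1, x2, x3⟩ := n
  obtain ⟨d, hd⟩ := sq χ₀ x1
  have d0 : d ≠ 0 := fun e => x2 (by simp [hd, e])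
  have d2 : d ^ 2 ∉ K := fun e => (hK _ e).elim (fun e => x2 (by simp [hd, e])) fun e =>
    x3 (by simp [hd, e])
  have d1 : d + d ^ 2 ≠ 0 := fun e => d2 (by
    rw [show d = 1 from mul_left_cancel₀ d0 (by linear_combination e - d * h2)]; simp)
  have inj : ∀ χ, T u χ → χ ⬝ᵥ w = 0 → χ = 0 := fun χ a e => by_contra fun z => d2 (by
    have := h.commR a (fA c _ _ c1 x1 hd) e
    rw [dot_flip h2 h.toTB hS h1 h3 o1 o2 x1, mul_smul] at this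
    exact h.maxR (h.commR a h3 e) this (right_ne_of_dot o1) (smul_ne_zero o2 z))
  have fB := fun a χ => flipA (a := a) (χ := χ) h2 h.toTB hS h3 h1 o2 o1 (c := c⁻¹)
    (by rw [← c1]; field_simp)
  have inj' : ∀ χ, T w χ → χ ⬝ᵥ u = 0 → χ = 0 := fun χ a e => by
    simpa [c0] using inj _ (fB 0 χ a (by simp [e])) (by simp [h.orth a])
  obtain ⟨ε, hε⟩ : ∃ ε, χ₀ = (d + d ^ 2) • ε + d ^ 2 • φ :=
    ⟨(d + d ^ 2)⁻¹ • (χ₀ - d ^ 2 • φ), by rw [smul_inv_smul₀ d1, sub_add_cancel]⟩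
  have e1 : ε ⬝ᵥ u = 0 := by simpa [hε, h.orth h1, d1] using h.orth x1
  have e2 : ε ⬝ᵥ w = 0 := by simpa [hε, d1] using hd
  have key : ∀ f χ, T u χ → χ ⬝ᵥ w = f ^ 2 * φ ⬝ᵥ w → χ = f ^ 2 • (φ - ε) + f • ε := fun f χ a e => by
    rcases eq_or_ne f 0 with rfl | f0
    · simpa using inj χ a (by simpa using e)
    have := inj _ (h.subR (mulA h2 h.toTB hS h1 h3 o1 o2 a x1 e hd d0)
      (mulA h2 h.toTB hS h1 h3 o1 o2 x1 a hd e f0)) (by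
        simp only [sub_dotProduct, add_dotProduct, smul_dotProduct, smul_eq_mul, e, hd]
        linear_combination ((d * f ^ 2 - f * d ^ 2) * φ ⬝ᵥ w) * h2)
    refine smul_right_injective _ d1 ?_
    rw [hε] at this
    linear_combination (norm := module) this +
      h2 • (d ^ 2 • χ + (f * d ^ 2 - d * f ^ 2 - d ^ 2 * f ^ 2) • φ)
  have hA : ∀ χ, T u χ ↔ ∃ f ∈ fld h2 h.toTB hS h1 h3 o1 o2, χ = f ^ 2 • (φ - ε) + f • ε := fun χ =>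
    ⟨fun a => let ⟨f, e⟩ := sq χ a; ⟨f, ⟨χ, a, e⟩, key f χ a e⟩,
      fun ⟨f, ⟨χ', a, e⟩, b⟩ => b ▸ key f χ' a e ▸ a⟩
  have hB : ∀ f ∈ fld h2 h.toTB hS h1 h3 o1 o2, ∀ c : k, c ^ 2 * φ ⬝ᵥ w = ψ ⬝ᵥ u →
      T w (f ^ 2 • (ψ + c • ε) + (f * c) • ε) := fun f hf c c1 => by
    convert fA c (f ^ 2) _ c1 ((hA _).2 ⟨f, hf, rfl⟩) (by simp [e2]) using 1
    linear_combination (norm := module) h2 • ((f ^ 2 * c) • ε - (f ^ 2 * c) • φ)
  refine ⟨_, φ - ε, ε, fun t => ?_, fun e => d2 ?_, e1, e2, by simp, hA, fun χ =>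
    ⟨fun a => ?_, fun ⟨f, hf, c, c1, e⟩ => e ▸ hB f hf c c1⟩⟩
  · rcases t d ⟨χ₀, x1, hd⟩ with e | e
    exacts [d0 e, d2 (by simp [e])]
  · exact h.maxR h1 (by simpa [hε, e] using x1) u0 (left_ne_of_dot o1)
  · obtain ⟨f, e⟩ := exists_sq h2 h.toTB hS h3 h1 o2 o1 a
    have hf : f ∈ fld h2 h.toTB hS h1 h3 o1 o2 :=
      ⟨_, fB _ χ a e, dot_flip h2 h.toTB hS h3 h1 o2 o1 a⟩
    exact ⟨f, hf, c, c1, sub_eq_zero.1 (inj' _ (h.subR a (hB f hf c c1)) (by simp [e, e1]))⟩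

theorem card_eq {L : Subfield k} (h2 : (2 : k) = 0) (o : α ⬝ᵥ w ≠ 0) (e : ε ⬝ᵥ w = 0)
    (hA : ∀ χ, T u χ ↔ ∃ d ∈ L, χ = d ^ 2 • α + d • ε) : Nonempty (L ≃ {χ | T u χ}) :=
  ⟨Equiv.ofBijective (fun d => ⟨d.1 ^ 2 • α + d.1 • ε, (hA _).2 ⟨d, d.2, rfl⟩⟩) ⟨fun a b c =>
    Subtype.ext (sq_inj h2 (by simpa [e, o] using congrArg (·.1 ⬝ᵥ w) c)), fun χ =>
      let ⟨d, a, b⟩ := (hA _).1 χ.2; ⟨⟨d, a⟩, Subtype.ext b.symm⟩⟩⟩

theorem nofat (h2 : (2 : k) = 0) (h : TS K T) (hL : LK T) (hf : {χ | T u χ}.Finite)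
    (hs : H20.LD.Sym T) (h1 : T u φ) (h3 : T u ψ) (u0 : u ≠ 0) (f0 : φ ≠ 0) : ∃ c : k, ψ = c • φ := by
  by_contra n
  have := hf.to_subtype
  have sy : ∀ x η, T x η → x ≠ 0 → η ⬝ᵥ u ≠ 0 → ∀ χ, T u χ → χ ⬝ᵥ x = 0 → χ = 0 :=
    fun x η a z b χ c d => by_contra fun e => b (hs u χ x η c a e z d)
  have sec := fun x η (a : T x η) (o1 : φ ⬝ᵥ x ≠ 0) (o2 : η ⬝ᵥ u ≠ 0) =>
    (hL u φ x η h1 a o1 o2).resolve_left fun f => n ((f ψ h3).elim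
      (fun e => ⟨0, by simpa using sy x η a (right_ne_of_dot o1) o2 ψ h3 e⟩) fun e =>
        ⟨1, by simpa [sub_eq_zero] using sy x η a (right_ne_of_dot o1) o2 _ (h.subR h3 h1) (by simp [e])⟩)
  obtain ⟨w, η, a, o1, o2⟩ := h.exists_opp u0 f0
  obtain ⟨L, α, ε, l1, e0, e1, e2, rfl, hA, -⟩ := sec w η a o1 o2
  replace o1 : α ⬝ᵥ w ≠ 0 := by simpa [e2] using o1
  obtain ⟨i⟩ := card_eq h2 o1 e2 hA
  have := Finite.of_equiv _ i.symm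
  simp only [Two, not_forall, not_or] at l1
  obtain ⟨d, hd, d0, d1⟩ := l1
  have d2 : d ^ 2 + d ≠ 0 := fun e => d1 (mul_left_cancel₀ d0 (by linear_combination e - d * h2))
  have nb : ∀ x ρ, T x ρ → ρ ≠ 0 → α ⬝ᵥ x = 0 ∨ ε ⬝ᵥ x = 0 := fun x ρ b r0 => by
    by_contra z
    obtain ⟨z1, z2⟩ := not_or.1 z
    have o3 : ρ ⬝ᵥ u ≠ 0 := fun e => by
      have p1 := hs x ρ u _ b h1 r0 u0 e
      have p2 := hs x ρ u _ b ((hA _).2 ⟨d, hd, rfl⟩) r0 u0 e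
      simp only [add_dotProduct, smul_dotProduct, smul_eq_mul] at p1 p2
      exact mul_ne_zero d2 z1 (by linear_combination p2 - d * p1 + (d * α ⬝ᵥ x) * h2)
    have s := sy x ρ b (right_ne_of_dot z1) o3
    have o4 := mt (s _ h1) f0
    obtain ⟨L', α', ε', -, -, -, e4, e5, hB, -⟩ := sec x ρ b o4 o3
    have e6 : α' ⬝ᵥ x = α ⬝ᵥ x + ε ⬝ᵥ x := by simpa [e4] using (congrArg (· ⬝ᵥ x) e5).symm
    obtain ⟨j⟩ := card_eq h2 (by rwa [e6, ← add_dotProduct]) e4 hB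
    have := Finite.of_equiv _ j.symm
    obtain ⟨f, hf, e7⟩ := (hB _).1 ((hA _).2 ⟨d, hd, rfl⟩)
    rw [← mem_iff_pow, Nat.card_congr (j.trans i.symm), mem_iff_pow] at hf
    replace e7 := congrArg (· ⬝ᵥ x) e7
    simp only [add_dotProduct, smul_dotProduct, smul_eq_mul, e4, e6] at e7
    have p : f ^ 2 + d ≠ 0 := fun e => mul_ne_zero d2 z1 (by
      linear_combination e7 + (α ⬝ᵥ x + ε ⬝ᵥ x) * e - (d * ε ⬝ᵥ x) * h2)
    have q : ε ⬝ᵥ x = (d ^ 2 + f ^ 2) / (f ^ 2 + d) * α ⬝ᵥ x := by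
      field_simp; linear_combination e7 + (f ^ 2 * ε ⬝ᵥ x - d ^ 2 * α ⬝ᵥ x) * h2
    have m : (d ^ 2 + f ^ 2) / (f ^ 2 + d) ∈ L :=
      div_mem (add_mem (pow_mem hd 2) (pow_mem hf 2)) (add_mem (pow_mem hf 2) hd)
    generalize (d ^ 2 + f ^ 2) / (f ^ 2 + d) = t at q m
    have := congrArg (· ⬝ᵥ w) (s _ ((hA _).2 ⟨t, m, rfl⟩) (by
      simp only [add_dotProduct, smul_dotProduct, smul_eq_mul, q]
      linear_combination (t ^ 2 * α ⬝ᵥ x) * h2))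
    simp [e2, o1] at this
    simp [this] at q
    exact z2 q
  let S : Set (V4 k) := {x | α ⬝ᵥ x = 0 ∧ ε ⬝ᵥ x ≠ 0 ∧ ∃ ρ, T x ρ ∧ ρ ≠ 0}
  rcases h.irr (Submodule.span k S) (fun y ρ b => or_iff_not_imp_right.2 fun z => by
    obtain ⟨x, ⟨x1, x2, σ, x3, x4⟩, x5⟩ : ∃ x ∈ S, ρ ⬝ᵥ x ≠ 0 := by
      by_contra! p
      exact z fun a ha => Submodule.span_induction p (by simp) (fun _ _ _ _ a b => by simp [a, b])
        (fun _ _ _ a => by simp [a]) ha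
    have t := h.conj b x3
    have t0 : σ - (σ ⬝ᵥ y) • ρ ≠ 0 := fun e => by
      have := congrArg (· ⬝ᵥ x) e
      simp [h.orth x3, x5] at this
      exact x4 (by simpa [this] using e)
    by_cases p : ε ⬝ᵥ y = 0
    · have p1 : ε ⬝ᵥ (x + (ρ ⬝ᵥ x) • y) ≠ 0 := by simpa [p] using x2
      have := Submodule.smul_mem _ (ρ ⬝ᵥ x)⁻¹ (sub_mem (Submodule.subset_span (R := k) (s := S)
        ⟨(nb _ _ t t0).resolve_right p1, p1, _, t, t0⟩) (Submodule.subset_span ⟨x1, x2, σ, x3, x4⟩))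
      simpa [x5] using this
    · exact Submodule.subset_span ⟨(nb _ _ b (left_ne_of_dot x5)).resolve_right p, p, ρ, b,
        left_ne_of_dot x5⟩) with e | e
  · obtain ⟨x, ρ, b, p, q⟩ := h.exists_opp u0 e0
    exact right_ne_of_dot p ((Submodule.eq_bot_iff _).1 e x (Submodule.subset_span
      ⟨(nb _ _ b (left_ne_of_dot q)).resolve_right p, p, ρ, b, left_ne_of_dot q⟩))
  · exact o1 (Submodule.span_induction (p := fun x _ => α ⬝ᵥ x = 0) (fun _ a => a.1) (by simp)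
      (fun _ _ _ _ a b => by simp [a, b]) (fun _ _ _ a => by simp [a]) (e ▸ Submodule.mem_top))

theorem jobTVK : JobTVK.{u} := fun _ _ _ _ h2 hK h hS =>
  ⟨lk h2 hK h hS, fun hf hs u _ _ a b c d => nofat h2 h (lk h2 hK h hS) (hf u c) hs a b c d⟩

end H37.TVK
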