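import Cfsg.Agent.H37.LDTVD
import Cfsg.Agent.H20.LD4Mon

/-! LD4 (blueprints/LD4.md): the job `JobTVM`. -/

set_option autoImplicit false
set_option linter.unusedSectionVars false

namespace H37.TVM

open Cfsg Matrix H20.LD H37.TVD Function
open scoped commutatorElement

universe u

variable {k : Type u} [Field k] {T : V4 k → V4 k → Prop} {u w y φ ψ η : V4 k} {i j l : Fin 4}
  {a b c : k}

/-- `e_i + b e_j` -/
def pt (i j : Fin 4) (b : k) : V4 k := Pi.single i 1 + Pi.single j b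

theorem pt_dot : pt i j b ⬝ᵥ y = y i + b * y j := by simp [pt]

theorem dot_pt : y ⬝ᵥ pt i j b = y i + b * y j := by rw [dotProduct_comm, pt_dot]

theorem pt_i (e : i ≠ j) : pt i j b i = 1 := by simp [pt, e]

theorem pt_j (e : i ≠ j) : pt i j b j = b := by simp [pt, e.symm]

theorem pt_l (e : l ≠ i) (e' : l ≠ j) : pt i j b l = 0 := by simp [pt, e, e']

theorem pt_ne (e : i ≠ j) : pt i j b ≠ 0 := fun z => by simpa [pt_i e] using congrFun z i

/-- the monomial transvection `(ij)_b` -/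
def E (T : V4 k → V4 k → Prop) (i j : Fin 4) (b : k) : Prop := T (pt i j b) (pt i j b⁻¹)

theorem E.symm (h : TB T) (b0 : b ≠ 0) (h1 : E T i j b) : E T j i b⁻¹ := by
  have := h.rescale h1 (inv_ne_zero b0)
  rw [E]
  convert this using 1 <;> simp [pt, ← Pi.single_smul, b0, add_comm]

theorem E.tr (h2 : (2 : k) = 0) (h : TB T) (b0 : b ≠ 0) (e1 : i ≠ j) (e2 : i ≠ l) (e3 : j ≠ l)
    (h1 : E T i j b) (h3 : E T j l c) : E T i l (b * c) := by
  have := h.rescale (h.conj h1 h3) b0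
  rw [pt_dot, pt_dot, pt_l e1 e2, pt_i e3, pt_j e1, pt_l e2.symm e3.symm] at this
  rw [E]
  convert this using 1 <;> funext m <;> simp only [pt, Pi.add_apply, Pi.sub_apply, Pi.smul_apply,
    Pi.single_apply, smul_eq_mul] <;> split_ifs <;> (try omega) <;> field_simp <;>
      first | ring1 | linear_combination b * h2 | linear_combination (-b) * h2

/-- all `(ij)_b` with `i, j ≤ 2` -/
def SS (T : V4 k → V4 k → Prop) (b : k) : Prop :=
  b ≠ 0 ∧ ∀ i j, i ≠ j → i ≠ 3 → j ≠ 3 → E T i j b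

theorem third : ∀ i j : Fin 4, i ≠ j → i ≠ 3 → j ≠ 3 → ∃ l, i ≠ l ∧ j ≠ l ∧ l ≠ 3 ∧
    ∀ m, m = i ∨ m = j ∨ m = l ∨ m = 3 := by decide

theorem SS.inv (h : TB T) (s : SS T b) : SS T b⁻¹ :=
  ⟨inv_ne_zero s.1, fun i j e1 e2 e3 => (s.2 j i e1.symm e3 e2).symm h s.1⟩

theorem SS.mul (h2 : (2 : k) = 0) (h : TB T) (s : SS T b) (t : SS T c) : SS T (b * c) :=
  ⟨mul_ne_zero s.1 t.1, fun i j e1 e2 e3 =>
    let ⟨l, a1, a2, a3, _⟩ := third i j e1 e2 e3
    (s.2 i l a1 e2 a3).tr h2 h s.1 a1 e1 a2.symm (t.2 l j a2.symm a3 e3)⟩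

theorem ss_of (h2 : (2 : k) = 0) (h : TB T) (a0 : a ≠ 0) (h1 : E T 0 1 1) (h3 : E T 0 2 1)
    (h4 : E T 0 1 a) : SS T 1 ∧ SS T a := by
  have t := fun i j l b c => E.tr (i := i) (j := j) (l := l) (b := b) (c := c) h2 h
  have e10 : E T 1 0 1 := by simpa using h1.symm h one_ne_zero
  have e20 : E T 2 0 1 := by simpa using h3.symm h one_ne_zero
  have e12 : E T 1 2 1 := by simpa using t _ _ _ _ _ one_ne_zero (by decide) (by decide) (by decide) e10 h3
  have key : ∀ a ≠ 0, E T 0 1 a → SS T a := fun a a0 h4 => by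
    have f02 : E T 0 2 a := by simpa using t _ _ _ _ _ a0 (by decide) (by decide) (by decide) h4 e12
    have f21 : E T 2 1 a := by
      simpa using t _ _ _ _ _ one_ne_zero (by decide) (by decide) (by decide) e20 h4
    have f12 : E T 1 2 a := by
      simpa using t _ _ _ _ _ one_ne_zero (by decide) (by decide) (by decide) e10 f02
    have f10 : E T 1 0 a := by simpa using t _ _ _ _ _ a0 (by decide) (by decide) (by decide) f12 e20
    have f20 : E T 2 0 a := by simpa using t _ _ _ _ _ a0 (by decide) (by decide) (by decide) f21 e10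
    refine ⟨a0, fun i j => ?_⟩
    fin_cases i <;> fin_cases j <;> simp [*]
  exact ⟨key 1 one_ne_zero h1, key a a0 h4⟩

theorem six {a b c d e f : Prop} (h1 : a → b → d ∧ e) (h2 : a → c → d ∧ f) (h3 : b → c → e ∧ f)
    (h4 : d → e → a ∧ b) (h5 : d → f → a ∧ c) (h6 : e → f → b ∧ c) (p : a ∨ d) (q : b ∨ e)
    (r : c ∨ f) : (a ∧ b ∧ c) ∧ d ∧ e ∧ f := by
  rcases p with p | p <;> rcases q with q | q <;> rcases r with r | r <;> simp_all

section core
variable (h2 : (2 : k) = 0) (h : TB T) (hM : MW T) (s1 : SS T 1) (sa : SS T a) (a1 : a ≠ 1)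
  (a3 : a ^ 2 + a + 1 ≠ 0)
include h2 h hM s1 sa a1 a3

theorem dich (h1 : T y η) (e1 : i ≠ j) (e2 : i ≠ 3) (e3 : j ≠ 3) : y i * η i = y j * η j ∨
    y i * η j = 0 ∧ y j * η i = 0 ∧ y i * η i + y j * η j = 1 := by
  refine or_iff_not_imp_left.2 fun n => ?_
  have a0 := sa.1
  have n1 : 1 + a ≠ 0 := fun e => a1 (by linear_combination e - h2)
  have n2 : y i * η i + y j * η j ≠ 0 := fun e => n (by linear_combination e - (y j * η j) * h2)
  have key : ∀ b, SS T b → y i * η i + y j * η j + (b * (y i * η j) + b⁻¹ * (y j * η i)) = 1 :=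
    fun b s => by
      have b0 := s.1
      rcases hM _ _ _ _ _ _ ⟨s.2 i j e1 e2 e3, (sa.mul h2 h s).2 i j e1 e2 e3, h1, by
        simp only [cyc, pt_dot, dot_pt, pt_i e1, pt_j e1]
        convert mul_ne_zero (div_ne_zero (pow_ne_zero 2 n1) a0) n2 using 1
        field_simp
        linear_combination (b ^ 2 * a * (1 + a) * y i * η j + (1 + a) * y j * η i) * h2⟩ with e | e <;>
        simp only [pt_dot, dot_pt, pt_i e1, pt_j e1] at e
      · field_simp at e
        exact absurd (by linear_combination e - a * h2 + a * h2) a3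
      · rw [← e]; field_simp; ring
  have k1 := key a sa
  have k2 := key _ (sa.inv h)
  have k3 := key 1 s1
  rw [inv_inv] at k2
  have p : (1 + a) ^ 2 * (y i * η j + y j * η i) = 0 := by
    field_simp at k1 k2
    linear_combination k1 + k2 + (a - a * (y i * η i + y j * η j) + a * (y i * η j + y j * η i)) * h2
  have q : y j * η i = y i * η j := by
    linear_combination (mul_eq_zero.1 p).resolve_left (pow_ne_zero 2 n1) - (y i * η j) * h2
  rw [q] at k1 k3 ⊢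
  have r : (1 + a) ^ 2 * (y i * η j) = 0 := by
    field_simp at k1
    linear_combination k1 - a * k3 + (2 * a * (y i * η j)) * h2
  replace r := (mul_eq_zero.1 r).resolve_left (pow_ne_zero 2 n1)
  exact ⟨r, r, by simpa [r] using k3⟩

theorem diag (h1 : T y η) (e1 : i ≠ j) (e2 : i ≠ 3) (e3 : j ≠ 3) (p : y j = 0) (q : η j = 0) :
    T (update y i (a * y i)) (update η i (a⁻¹ * η i)) := by
  have a0 := sa.1
  convert h.conj ((sa.inv h).2 i j e1 e2 e3) (h.conj (s1.2 i j e1 e2 e3) h1) using 1 <;> funext m <;>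
    simp only [pt_dot, dot_pt, Pi.add_apply, Pi.sub_apply, Pi.smul_apply, pt_i e1, pt_j e1, p, q,
      smul_eq_mul] <;> simp only [pt, Pi.add_apply, Pi.single_apply, update_apply] <;>
    split_ifs with c1 c2 <;> (try omega) <;> (try subst c1) <;> (try subst_vars) <;> (try simp only [p, q]) <;>
      field_simp <;> first | ring1 | skip
  · linear_combination (-2 * y m) * h2
  · linear_combination (-(a * y i + y i)) * h2

theorem case_b (hN : NoFat T) (h1 : T y η) (e1 : i ≠ j) (e2 : i ≠ 3) (e3 : j ≠ 3) (e4 : i ≠ l)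
    (e5 : j ≠ l) (e6 : l ≠ 3) (hm : ∀ m, m = i ∨ m = j ∨ m = l ∨ m = 3) (p : y j = 0) (q : η j = 0)
    (r : y i * η i = 1) (s : y 3 * η 3 = 0) : y 3 = 0 ∧ η 3 = 0 := by
  have a0 := sa.1
  have y0 := left_ne_zero_of_mul_eq_one r
  have z0 := right_ne_zero_of_mul_eq_one r
  have d := diag h2 h hM s1 sa a1 a3 (diag h2 h hM s1 sa a1 a3 h1 e1 e2 e3 p q) e5.symm e6 e3
    (by simpa [e1.symm] using p) (by simpa [e1.symm] using q)
  rw [update_of_ne e4.symm, update_of_ne e4.symm] at d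
  have u1 : ∀ (c : k) (x : V4 k), x j = 0 → x 3 = 0 → update (update x i (c * x i)) l (c * x l) = c • x :=
    fun c x b1 b2 => funext fun m => by
      rcases hm m with rfl | rfl | rfl | rfl <;> simp [e1.symm, e2.symm, e4, e5, e6.symm, b1, b2]
  have u2 : ∀ (c t : k) (x : V4 k), x i ≠ 0 → c ≠ 1 → c ≠ 0 →
      c⁻¹ • update (update x i (c * x i)) l (c * x l) = t • x → x 3 = 0 := fun c t x b1 b2 b3 e => by
    have f1 := congrFun e i
    have f2 := congrFun e 3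
    simp [e4, e2.symm, e6.symm, b1, b3] at f1 f2
    exact f2.resolve_left fun z => b2 (inv_eq_one.1 (z.trans f1))
  have hy : y ≠ 0 := fun e => y0 (congrFun e i)
  have hη : η ≠ 0 := fun e => z0 (congrFun e i)
  rcases mul_eq_zero.1 s with s | s
  · rw [u1 a y p s, h.smul_iff] at d
    obtain ⟨t, e⟩ := hN.1 _ _ _ h1 d hy hη
    exact ⟨s, u2 a⁻¹ t η z0 (mt inv_eq_one.1 a1) (inv_ne_zero a0) (by rwa [inv_inv])⟩
  · rw [u1 a⁻¹ η q s, ← h.smul_iff] at d
    obtain ⟨t, e⟩ := hN.2 _ _ _ h1 d hy hη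
    exact ⟨u2 a t y y0 a1 a0 e, s⟩

theorem case_c0 (hS : H20.LD.Sym T) (h1 : T y η) (hy : y ≠ 0) (hη : η ≠ 0)
    (p : ∀ i, y i * η i = 0) : False := by
  have n1 : ∀ x z : k, x + 1 * z = 0 → x + a * z = 0 → x = 0 ∧ z = 0 := fun x z e f => by
    have : z = 0 := (mul_eq_zero.1 (show (a - 1) * z = 0 by linear_combination f - e)).resolve_left
      (sub_ne_zero.2 a1)
    exact ⟨by simpa [this] using e, this⟩
  have k1 : ∀ i j, i ≠ j → i ≠ 3 → j ≠ 3 → y i = 0 → y j = 0 → η i = 0 ∧ η j = 0 :=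
    fun i j e1 e2 e3 b c => n1 _ _
      (by simpa [dot_pt] using hS _ _ _ _ (s1.2 i j e1 e2 e3) h1 (pt_ne e1) hy (by simp [pt_dot, b, c]))
      (by simpa [dot_pt] using hS _ _ _ _ (sa.2 i j e1 e2 e3) h1 (pt_ne e1) hy (by simp [pt_dot, b, c]))
  have k2 : ∀ i j, i ≠ j → i ≠ 3 → j ≠ 3 → η i = 0 → η j = 0 → y i = 0 ∧ y j = 0 :=
    fun i j e1 e2 e3 b c => n1 _ _
      (by simpa [pt_dot] using hS _ _ _ _ h1 (s1.2 i j e1 e2 e3) hη (pt_ne e1) (by simp [dot_pt, b, c]))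
      (by simpa [pt_dot] using (hS _ _ _ _ h1 ((sa.inv h).2 i j e1 e2 e3) hη (pt_ne e1)
        (by simp [dot_pt, b, c])))
  obtain ⟨⟨c0, c1, c2⟩, d0, d1, d2⟩ := six (k1 0 1 (by decide) (by decide) (by decide))
    (k1 0 2 (by decide) (by decide) (by decide)) (k1 1 2 (by decide) (by decide) (by decide))
    (k2 0 1 (by decide) (by decide) (by decide)) (k2 0 2 (by decide) (by decide) (by decide))
    (k2 1 2 (by decide) (by decide) (by decide)) (mul_eq_zero.1 (p 0)) (mul_eq_zero.1 (p 1))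
    (mul_eq_zero.1 (p 2))
  rcases mul_eq_zero.1 (p 3) with e | e
  · exact hy (funext fun i => by fin_cases i; exacts [c0, c1, c2, e])
  · exact hη (funext fun i => by fin_cases i; exacts [d0, d1, d2, e])

theorem case_c (h1 : T y η) (p0 : y 0 * η 0 = y 2 * η 2) (p1 : y 1 * η 1 = y 2 * η 2) :
    y 2 * η 2 = 0 := by
  by_contra n
  have a0 := sa.1
  have P0 : y 0 * η 1 ≠ 0 := mul_ne_zero (left_ne_zero_of_mul (p0 ▸ n)) (right_ne_zero_of_mul (p1 ▸ n))
  have key : ∀ b, SS T b → b ^ 2 * (y 0 * η 1) = y 1 * η 0 ∨ b ^ 2 * (y 0 * η 1) + y 1 * η 0 = b :=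
    fun b s => by
      have b0 := s.1
      have := dich h2 h hM s1 sa a1 a3 (h.conj h1 (s.2 0 1 (by decide) (by decide) (by decide)))
        (i := 0) (j := 2) (by decide) (by decide) (by decide)
      simp only [pt_dot, dot_pt, Pi.add_apply, Pi.sub_apply, Pi.smul_apply, smul_eq_mul,
        pt_i (show (0 : Fin 4) ≠ 1 by decide), pt_l (show (2 : Fin 4) ≠ 0 by decide)
          (show (2 : Fin 4) ≠ 1 by decide)] at this
      rcases this with e | ⟨-, -, e⟩ <;> field_simp at e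
      · exact .inr (by
          linear_combination e + (η 0 + b * η 1) * (b * y 0 + y 1) * p0 + (y 1 * η 0 - b) * h2)
      · exact .inl (by
          linear_combination e + (η 0 + b * η 1) * (b * y 0 + y 1) * (p0 + y 2 * η 2 * h2))
  have o : ∀ b c, b ≠ c → b ^ 2 * (y 0 * η 1) + y 1 * η 0 = b →
      c ^ 2 * (y 0 * η 1) + y 1 * η 0 = c → (b + c) * (y 0 * η 1) = 1 := fun b c e f g =>
    mul_left_cancel₀ (sub_ne_zero.2 e) (by linear_combination f - g)
  obtain ⟨b, s, hb⟩ : ∃ b, SS T b ∧ ∀ c, SS T c → c ≠ b → c ^ 2 * (y 0 * η 1) + y 1 * η 0 = c := by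
    by_cases z : ∃ b, SS T b ∧ b ^ 2 * (y 0 * η 1) = y 1 * η 0
    · obtain ⟨b, s, e⟩ := z
      exact ⟨b, s, fun c t f => (key c t).resolve_left fun g =>
        f (sq_inj h2 (mul_right_cancel₀ P0 (g.trans e.symm)))⟩
    · exact ⟨1, s1, fun c t _ => (key c t).resolve_left fun g => z ⟨c, t, g⟩⟩
  have b0 := s.1
  have q2 : a * a ≠ 1 := fun e => a1 (sq_inj h2 (by linear_combination e))
  have q3 : a * (a * a) ≠ 1 := fun e => mul_ne_zero (sub_ne_zero.2 a1) a3 (by linear_combination e)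
  have t1 := hb _ (sa.mul h2 h s) (by simpa [b0] using a1)
  have t2 := hb _ ((sa.mul h2 h sa).mul h2 h s) (by simpa [b0] using q2)
  have t3 := hb _ ((sa.mul h2 h (sa.mul h2 h sa)).mul h2 h s) (by simpa [b0] using q3)
  have r1 := o _ _ (by simpa [b0, a0] using a1) t1 t2
  have r2 := o _ _ (by simpa [b0, a0] using q2) t1 t3
  exact mul_ne_zero (mul_ne_zero (mul_ne_zero (mul_ne_zero a0 a0) b0) (sub_ne_zero.2 a1)) P0
    (by linear_combination r2 - r1)

theorem shape (hS : H20.LD.Sym T) (hN : NoFat T) (h1 : T y η) (hy : y ≠ 0) (hη : η ≠ 0) :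
    ∃ i j, i ≠ j ∧ y i * η i = 1 ∧ y j * η j = 1 ∧ ∀ m, m ≠ i → m ≠ j → y m = 0 ∧ η m = 0 := by
  have d := fun i j => dich (i := i) (j := j) h2 h hM s1 sa a1 a3 h1
  have o := h.orth h1
  rw [dotProduct_comm] at o
  by_cases n : ∃ i j, i ≠ j ∧ i ≠ 3 ∧ j ≠ 3 ∧ y i * η i ≠ y j * η j
  swap
  · push Not at n
    have n0 := n 0 2 (by decide) (by decide) (by decide)
    have n1 := n 1 2 (by decide) (by decide) (by decide)
    have z := case_c h2 h hM s1 sa a1 a3 h1 n0 n1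
    simp only [dotProduct, Fin.sum_univ_four, n0, n1, z, zero_add] at o
    exact (case_c0 h2 h hM s1 sa a1 a3 hS h1 hy hη fun i => by
      fin_cases i
      exacts [n0.trans z, n1.trans z, z, o]).elim
  have one : ∀ i j, y i * η i = 1 → y i * η j = 0 → y j * η i = 0 → y j = 0 ∧ η j = 0 :=
    fun i j p q r => ⟨(mul_eq_zero.1 r).resolve_right (right_ne_zero_of_mul_eq_one p),
      (mul_eq_zero.1 q).resolve_left (left_ne_zero_of_mul_eq_one p)⟩
  obtain ⟨i, j, e1, e2, e3, p, q, r⟩ : ∃ i j, i ≠ j ∧ i ≠ 3 ∧ j ≠ 3 ∧ y i * η i = 1 ∧ y j = 0 ∧ η j = 0 := by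
    obtain ⟨i, j, e1, e2, e3, n⟩ := n
    obtain ⟨p, q, r⟩ := (d i j e1 e2 e3).resolve_left n
    rcases mul_eq_zero.1 (show y i * η i * (y j * η j) = 0 by linear_combination (y j * η i) * p) with
      z | z <;> rw [z] at r
    exacts [⟨j, i, e1.symm, e3, e2, by simpa using r, one j i (by simpa using r) q p⟩,
      ⟨i, j, e1, e2, e3, by simpa using r, one i j (by simpa using r) p q⟩]
  obtain ⟨l, e4, e5, e6, hm⟩ := third i j e1 e2 e3
  have s : y i * η i + y j * η j + y l * η l + y 3 * η 3 = 0 := by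
    rw [← o, dotProduct, show (Finset.univ : Finset (Fin 4)) = {i, j, l, 3} from
      (Finset.eq_univ_iff_forall.2 fun m => by simpa using hm m).symm, Finset.sum_insert (by simp [*]),
      Finset.sum_insert (by simp [*]), Finset.sum_pair e6, add_assoc, add_assoc]
  rcases d i l e4 e2 e6 with z | ⟨z1, z2, -⟩
  · have t := case_b h2 h hM s1 sa a1 a3 hN h1 e1 e2 e3 e4 e5 e6 hm q r p
      (by linear_combination s + z - 2 * p - (η j) * q - h2)
    refine ⟨i, l, e4, p, z ▸ p, fun m b c => ?_⟩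
    rcases hm m with rfl | rfl | rfl | rfl
    exacts [absurd rfl b, ⟨q, r⟩, absurd rfl c, t]
  · have t := one i l p z1 z2
    refine ⟨i, 3, e2, p, by linear_combination s - p - (η j) * q - (η l) * t.1 - h2, fun m b c => ?_⟩
    rcases hm m with rfl | rfl | rfl | rfl
    exacts [absurd rfl b, ⟨q, r⟩, t, absurd rfl c]

end core

theorem mon_tv (h2 : (2 : k) = 0) {o : η ⬝ᵥ y = 0} (p : y i * η i = 1) (q : y j * η j = 1)
    (r : ∀ m, m ≠ i → m ≠ j → y m = 0 ∧ η m = 0) : Mon (tv y η o) (Equiv.swap i j) := fun a b n => by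
  rw [tv_val, Matrix.add_apply, vecMulVec_apply]
  by_cases c : a = b
  · subst c
    rw [one_apply_eq]
    by_cases c1 : a = i
    · rw [c1, p, one_add_one_eq_two, h2]
    by_cases c2 : a = j
    · rw [c2, q, one_add_one_eq_two, h2]
    exact absurd (Equiv.swap_apply_of_ne_of_ne c1 c2).symm n
  rw [one_apply_ne c, zero_add]
  by_cases c1 : b = i
  · rw [(r a (c1 ▸ c) (by simpa [c1] using n)).1, zero_mul]
  by_cases c2 : b = j
  · rw [(r a (by simpa [c2] using n) (c2 ▸ c)).1, zero_mul]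
  rw [(r b c1 c2).2, mul_zero]

/-- even monomial matrices -/
def Ev (k : Type u) [Field k] : Subgroup (G4 k) where
  carrier := {g | ∃ σ, Mon g σ ∧ Equiv.Perm.sign σ = 1}
  mul_mem' := fun ⟨_, a, b⟩ ⟨_, c, d⟩ => ⟨_, a.mul c, by simp [b, d]⟩
  one_mem' := ⟨1, mon_one, by simp⟩
  inv_mem' := fun ⟨_, a, b⟩ => ⟨_, a.inv, by simp [b]⟩

theorem mw_pb (h : MW T) (B : G4 k) : MW (pb B T) := fun _ _ _ _ _ _ a => by
  simpa only [conj_dot'] using h _ _ _ _ _ _ ((nd_pb B).1 a)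

theorem exists_std (h2 : (2 : k) = 0) (h : TB T) (hE : Ext T) (hM : MW T) (h1 : T u φ) (h3 : T w ψ)
    {m : k} (o1 : φ ⬝ᵥ w = m) (o2 : ψ ⬝ᵥ u = m) (m0 : m ≠ 0) (m1 : m * m ≠ 1) :
    ∃ B a, a ≠ 0 ∧ a ≠ 1 ∧ a ^ 2 + a + 1 ≠ 0 ∧ E (pb B T) 0 1 1 ∧ E (pb B T) 0 2 1 ∧ E (pb B T) 0 1 a := by
  obtain ⟨y, η, n⟩ := hE u φ w ψ h1 h3 (o1 ▸ m0)
  have z1 := h.orth h1
  have z2 := h.orth h3
  have z3 := h.orth n.2.2.1
  have k1 := (hM _ _ _ _ _ _ n).resolve_left (by rwa [o1, o2])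
  have k2 := (hM _ _ _ _ _ _ n.flip.rot.rot).resolve_left (by rwa [o1, o2])
  have k3 := (hM _ _ _ _ y η ⟨h.conj h1 h3, h1, n.2.2.1, by
    convert n.2.2.2 using 1
    simp only [cyc, dotProduct_add, sub_dotProduct, smul_dotProduct, dotProduct_smul,
      smul_eq_mul, z1, o1, o2]
    ring⟩).resolve_left (by simpa [z1, o1, o2] using m1)
  simp only [dotProduct_add, sub_dotProduct, smul_dotProduct, dotProduct_smul, smul_eq_mul, o1,
    o2] at k3
  have A0 := left_ne_zero_of_mul_eq_one k1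
  have B0 := left_ne_zero_of_mul_eq_one k2
  obtain ⟨μ, hB⟩ : ∃ μ, ψ ⬝ᵥ y = μ * φ ⬝ᵥ y := ⟨ψ ⬝ᵥ y / φ ⬝ᵥ y, by field_simp⟩
  have μ0 : μ ≠ 0 := fun e => B0 (by simp [hB, e])
  have hC := eq_inv_of_mul_eq_one_right k1
  have hD := eq_inv_of_mul_eq_one_right k2
  rw [hB] at hD
  have hm : m = μ + μ⁻¹ := by
    rw [hB, hC, hD] at k3
    field_simp at k3 ⊢
    exact mul_left_cancel₀ m0 (by linear_combination -k3 - m * h2)
  have hm' : m * μ = μ ^ 2 + 1 := by rw [hm]; field_simp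
  generalize hA : φ ⬝ᵥ y = A at *
  have μ1 : μ ^ 2 ≠ 1 := fun e => m0 (by rw [hm]; field_simp; linear_combination e + h2)
  have e : ∀ i, (fun j => ![m⁻¹ • φ, (μ * m)⁻¹ • ψ, (A / m) • η] i ⬝ᵥ
      ![μ • u + w, μ⁻¹ • u + w, (m / A) • y + (μ • u + w)] j) =
      ![![1, 1, 0], ![1, (μ ^ 2)⁻¹, 0], ![1, 0, 1]] i := fun i => funext fun j => by
    fin_cases i <;> fin_cases j <;> simp [z1, z2, z3, o1, o2, hA, hB, hC, hD] <;> field_simp <;>
      first | linear_combination h2 | linear_combination -hm'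
  obtain ⟨B, b1, b2⟩ := exists_frame3 ![μ • u + w, μ⁻¹ • u + w, (m / A) • y + (μ • u + w)]
    ![m⁻¹ • φ, (μ * m)⁻¹ • ψ, (A / m) • η] (by
      rw [funext e]
      simpa [det_fin_three, sub_eq_zero] using μ1)
  simp only [e, ex_single] at b1 b2
  have c0 : B.val *ᵥ Pi.single 0 1 = μ • u + w := b1 0
  have c1 : B.val *ᵥ Pi.single 1 1 = μ⁻¹ • u + w := b1 1
  have c2 : B.val *ᵥ Pi.single 2 1 = (m / A) • y + (μ • u + w) := b1 2
  have v : ∀ (i j : Fin 4) (b : k), B.val *ᵥ pt i j b = B.val *ᵥ Pi.single i 1 + b • B.val *ᵥ Pi.single j 1 :=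
    fun i j b => by rw [pt, mulVec_add, ← mulVec_smul, ← Pi.single_smul, smul_eq_mul, mul_one]
  refine ⟨B, μ ^ 2, pow_ne_zero 2 μ0, μ1, fun z => m1 ?_, ?_, ?_, ?_⟩
  · rw [hm]; field_simp; linear_combination z
  · rw [E, pb, v, c0, c1, show pt 0 1 (1 : k)⁻¹ = ex ![1, 1, 0] by funext i; fin_cases i <;> simp [pt, ex]]
    convert h.rescale h1 m0 using 1
    · rw [hm]; linear_combination (norm := module) h2 • w
    · exact b2 0
  · rw [E, pb, v, c0, c2, show pt 0 2 (1 : k)⁻¹ = ex ![1, 0, 1] by funext i; fin_cases i <;> simp [pt, ex]]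
    convert h.rescale n.2.2.1 (div_ne_zero m0 A0) using 1
    · linear_combination (norm := module) h2 • (μ • u + w)
    · rw [inv_div]; exact b2 2
  · rw [E, pb, v, c0, c1, show pt 0 1 (μ ^ 2)⁻¹ = ex ![1, (μ ^ 2)⁻¹, 0] by
      funext i; fin_cases i <;> simp [pt, ex]]
    convert h.rescale h3 (mul_ne_zero μ0 m0) using 1
    · rw [hm]
      match_scalars <;> field_simp
      · linear_combination μ * h2
      · ring
    · exact b2 1

theorem jobTVM : JobTVM.{u} := fun k _ _ G _ K _ hG h h2 hK hS hs hN hE hM hp u φ w ψ h1 h3 =>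
    .inl (by_contra fun n => by
  have o1 : φ ⬝ᵥ w ≠ 0 := fun e => n (by simp [e])
  have o2 : ψ ⬝ᵥ u ≠ 0 := fun e => n (by simp [e])
  obtain ⟨c, c1, -⟩ := hS _ _ _ _ h1 h3 o1 o2
  have c0 : c ≠ 0 := fun e => o2 (by rw [← c1, e]; simp)
  obtain ⟨B, a, a0, a1, a3, e1, e2, e3⟩ := exists_std h2 h.toTB hE hM h1 (h.rescale h3 c0)
    (m := c * φ ⬝ᵥ w) (by simp) (by rw [smul_dotProduct, ← c1, smul_eq_mul]; field_simp)
    (mul_ne_zero c0 o1) fun e => n (by
      rw [← c1, show φ ⬝ᵥ w * (c ^ 2 * φ ⬝ᵥ w) = 1 by linear_combination e]; exact one_mem _)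
  obtain ⟨s1, sa⟩ := ss_of h2 (h.toTB.pb B) a0 e1 e2 e3
  have m : ∀ g ∈ cg G B, ∃ σ, Mon g σ := fun g => (hG.cg B).ind (P := fun g => ∃ σ, Mon g σ)
    ⟨1, mon_one⟩ (fun _ _ ⟨_, a⟩ ⟨_, b⟩ => ⟨_, a.mul b⟩) fun y η t y0 z0 =>
      let ⟨_, _, _, q, r, s⟩ := shape h2 (h.toTB.pb B) (mw_pb hM B) s1 sa a1 a3 (hs.pb B) (hN.pb B)
        (tv_cg B ▸ t) y0 z0
      ⟨_, mon_tv h2 q r s⟩
  have l : ⁅G, G⁆ ≤ (Ev k).comap (MulAut.conj B⁻¹).toMonoidHom := Subgroup.commutator_le.2 fun x hx y hy => by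
    obtain ⟨σ, p⟩ := m _ (conj_mem_cg.2 hx)
    obtain ⟨τ, q⟩ := m _ (conj_mem_cg.2 hy)
    refine ⟨_, ?_, show Equiv.Perm.sign (σ * τ * σ⁻¹ * τ⁻¹) = 1 by simp [mul_right_comm _ (Equiv.Perm.sign τ)]⟩
    convert ((p.mul q).mul p.inv).mul q.inv using 1
    simp [commutatorElement_def, mul_assoc]
  rw [E, ← tv_cg] at e1
  obtain ⟨σ, p, q⟩ := l (hp.ge (mem_cg.1 e1.mem))
  simp only [MulEquiv.toMonoidHom_eq_coe, MonoidHom.coe_coe, MulAut.conj_apply, mul_assoc, inv_inv,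
    inv_mul_cancel, mul_one, inv_mul_cancel_left] at p
  rw [p.unique (mon_tv h2 (i := 0) (j := 1) (by simp [pt]) (by simp [pt])
    fun m b c => by simp [pt, b, c]), Equiv.Perm.sign_swap (by decide)] at q
  exact absurd q (by decide))

end H37.TVM
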