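import Cfsg.Agent.H37.LDTVM
import Cfsg.Agent.H57.LD4Fix

/-! LD4 (blueprints/LD4.md): the job `JobTVM2` (corrected extension property). -/

set_option autoImplicit false

namespace H37.TVM

open Cfsg Matrix H20.LD H57.LD4F H37.TVD Function
open scoped commutatorElement

universe u

variable {k : Type u} [Field k] {T : V4 k → V4 k → Prop} {u w φ ψ : V4 k}

theorem exists_std2 (h2 : (2 : k) = 0) (h : TB T) (hE : Ext2 T) (hM : MW T) (h1 : T u φ) (h3 : T w ψ)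
    {m : k} (o1 : φ ⬝ᵥ w = m) (o2 : ψ ⬝ᵥ u = m) (m0 : m ≠ 0) (m1 : m * m ≠ 1) :
    ∃ B a, a ≠ 0 ∧ a ≠ 1 ∧ a ^ 2 + a + 1 ≠ 0 ∧ E (pb B T) 0 1 1 ∧ E (pb B T) 0 2 1 ∧ E (pb B T) 0 1 a := by
  obtain ⟨y, η, n⟩ := hE u φ w ψ h1 h3 (o1 ▸ m0) (o2 ▸ m0)
  have z1 := h.orth h1
  have z2 := h.orth h3
  have z3 := h.orth n.2.2.1
  have k1 := (hM _ _ _ _ _ _ n).resolve_left (by rwa [o1, o2])
  have k2 := (hM _ _ _ _ _ _ n.flip.rot.rot).resolve_left (by rwa [o1, o2])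
  have k3 := (hM _ _ _ _ y η ⟨h.conj h1 h3, h1, n.2.2.1, by
    convert n.2.2.2 using 1
    simp only [cyc, dotProduct_add, sub_dotProduct, smul_dotProduct, dotProduct_smul,
      smul_eq_mul, z1, o1, o2]
    ring⟩).resolve_left (by simpa [z1, o1, o2] using m1)
  simp only [dotProduct_add, sub_dotProduct, smul_dotProduct, dotProduct_smul, smul_eq_mul, o1,
    o2] at k3
  have A0 := left_ne_zero_of_mul_eq_one k1
  have B0 := left_ne_zero_of_mul_eq_one k2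
  obtain ⟨μ, hB⟩ : ∃ μ, ψ ⬝ᵥ y = μ * φ ⬝ᵥ y := ⟨ψ ⬝ᵥ y / φ ⬝ᵥ y, by field_simp⟩
  have μ0 : μ ≠ 0 := fun e => B0 (by simp [hB, e])
  have hC := eq_inv_of_mul_eq_one_right k1
  have hD := eq_inv_of_mul_eq_one_right k2
  rw [hB] at hD
  have hm : m = μ + μ⁻¹ := by
    rw [hB, hC, hD] at k3
    field_simp at k3 ⊢
    exact mul_left_cancel₀ m0 (by linear_combination -k3 - m * h2)
  have hm' : m * μ = μ ^ 2 + 1 := by rw [hm]; field_simp
  generalize hA : φ ⬝ᵥ y = A at *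
  have μ1 : μ ^ 2 ≠ 1 := fun e => m0 (by rw [hm]; field_simp; linear_combination e + h2)
  have e : ∀ i, (fun j => ![m⁻¹ • φ, (μ * m)⁻¹ • ψ, (A / m) • η] i ⬝ᵥ
      ![μ • u + w, μ⁻¹ • u + w, (m / A) • y + (μ • u + w)] j) =
      ![![1, 1, 0], ![1, (μ ^ 2)⁻¹, 0], ![1, 0, 1]] i := fun i => funext fun j => by
    fin_cases i <;> fin_cases j <;> simp [z1, z2, z3, o1, o2, hA, hB, hC, hD] <;> field_simp <;>
      first | linear_combination h2 | linear_combination -hm'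
  obtain ⟨B, b1, b2⟩ := exists_frame3 ![μ • u + w, μ⁻¹ • u + w, (m / A) • y + (μ • u + w)]
    ![m⁻¹ • φ, (μ * m)⁻¹ • ψ, (A / m) • η] (by
      rw [funext e]
      simpa [det_fin_three, sub_eq_zero] using μ1)
  simp only [e, ex_single] at b1 b2
  have c0 : B.val *ᵥ Pi.single 0 1 = μ • u + w := b1 0
  have c1 : B.val *ᵥ Pi.single 1 1 = μ⁻¹ • u + w := b1 1
  have c2 : B.val *ᵥ Pi.single 2 1 = (m / A) • y + (μ • u + w) := b1 2
  have v : ∀ (i j : Fin 4) (b : k), B.val *ᵥ pt i j b = B.val *ᵥ Pi.single i 1 + b • B.val *ᵥ Pi.single j 1 :=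
    fun i j b => by rw [pt, mulVec_add, ← mulVec_smul, ← Pi.single_smul, smul_eq_mul, mul_one]
  refine ⟨B, μ ^ 2, pow_ne_zero 2 μ0, μ1, fun z => m1 ?_, ?_, ?_, ?_⟩
  · rw [hm]; field_simp; linear_combination z
  · rw [E, pb, v, c0, c1, show pt 0 1 (1 : k)⁻¹ = ex ![1, 1, 0] by funext i; fin_cases i <;> simp [pt, ex]]
    convert h.rescale h1 m0 using 1
    · rw [hm]; linear_combination (norm := module) h2 • w
    · exact b2 0
  · rw [E, pb, v, c0, c2, show pt 0 2 (1 : k)⁻¹ = ex ![1, 0, 1] by funext i; fin_cases i <;> simp [pt, ex]]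
    convert h.rescale n.2.2.1 (div_ne_zero m0 A0) using 1
    · linear_combination (norm := module) h2 • (μ • u + w)
    · rw [inv_div]; exact b2 2
  · rw [E, pb, v, c0, c1, show pt 0 1 (μ ^ 2)⁻¹ = ex ![1, (μ ^ 2)⁻¹, 0] by
      funext i; fin_cases i <;> simp [pt, ex]]
    convert h.rescale h3 (mul_ne_zero μ0 m0) using 1
    · rw [hm]
      match_scalars <;> field_simp
      · linear_combination μ * h2
      · ring
    · exact b2 1

theorem jobTVM2 : JobTVM2.{u} := fun k _ _ G _ K _ hG h h2 hK hS hs hN hE hM hp u φ w ψ h1 h3 =>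
    .inl (by_contra fun n => by
  have o1 : φ ⬝ᵥ w ≠ 0 := fun e => n (by simp [e])
  have o2 : ψ ⬝ᵥ u ≠ 0 := fun e => n (by simp [e])
  obtain ⟨c, c1, -⟩ := hS _ _ _ _ h1 h3 o1 o2
  have c0 : c ≠ 0 := fun e => o2 (by rw [← c1, e]; simp)
  obtain ⟨B, a, a0, a1, a3, e1, e2, e3⟩ := exists_std2 h2 h.toTB hE hM h1 (h.rescale h3 c0)
    (m := c * φ ⬝ᵥ w) (by simp) (by rw [smul_dotProduct, ← c1, smul_eq_mul]; field_simp)
    (mul_ne_zero c0 o1) fun e => n (by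
      rw [← c1, show φ ⬝ᵥ w * (c ^ 2 * φ ⬝ᵥ w) = 1 by linear_combination e]; exact one_mem _)
  obtain ⟨s1, sa⟩ := ss_of h2 (h.toTB.pb B) a0 e1 e2 e3
  have m : ∀ g ∈ cg G B, ∃ σ, Mon g σ := fun g => (hG.cg B).ind (P := fun g => ∃ σ, Mon g σ)
    ⟨1, mon_one⟩ (fun _ _ ⟨_, a⟩ ⟨_, b⟩ => ⟨_, a.mul b⟩) fun y η t y0 z0 =>
      let ⟨_, _, _, q, r, s⟩ := shape h2 (h.toTB.pb B) (mw_pb hM B) s1 sa a1 a3 (hs.pb B) (hN.pb B)
        (tv_cg B ▸ t) y0 z0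
      ⟨_, mon_tv h2 q r s⟩
  have l : ⁅G, G⁆ ≤ (Ev k).comap (MulAut.conj B⁻¹).toMonoidHom := Subgroup.commutator_le.2 fun x hx y hy => by
    obtain ⟨σ, p⟩ := m _ (conj_mem_cg.2 hx)
    obtain ⟨τ, q⟩ := m _ (conj_mem_cg.2 hy)
    refine ⟨_, ?_, show Equiv.Perm.sign (σ * τ * σ⁻¹ * τ⁻¹) = 1 by simp [mul_right_comm _ (Equiv.Perm.sign τ)]⟩
    convert ((p.mul q).mul p.inv).mul q.inv using 1
    simp [commutatorElement_def, mul_assoc]
  rw [E, ← tv_cg] at e1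
  obtain ⟨σ, p, q⟩ := l (hp.ge (mem_cg.1 e1.mem))
  simp only [MulEquiv.toMonoidHom_eq_coe, MonoidHom.coe_coe, MulAut.conj_apply, mul_assoc, inv_inv,
    inv_mul_cancel, mul_one, inv_mul_cancel_left] at p
  rw [p.unique (mon_tv h2 (i := 0) (j := 1) (by simp [pt]) (by simp [pt])
    fun m b c => by simp [pt, b, c]), Equiv.Perm.sign_swap (by decide)] at q
  exact absurd q (by decide))

end H37.TVM
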