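import Cfsg.Agent.H37.QTFi
import Cfsg.Agent.H62.QTSec
import Cfsg.Agent.H73.HNA
import Cfsg.Agent.H15.ThMat
/-! The groups HN and Th are big; the job for the second half of the sporadic groups. -/
set_option autoImplicit false
set_option maxRecDepth 100000
namespace H37.QT
open Cfsg Cfsg.Spor H97.QT H71 H73 H74.ThT H15.RepTh

universe u

def eW : WE := .s (.m (.m (.l 7) (.l 4)) (.m (.l 9) (.l 5)))
def eX : WE := .m (.l 6) (.l 7)
def eY : WE := .m (.l 9) (.l 10)
def e1 : WE := .s (.l 6)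

theorem th_eq : eqsE [(.m (.s eW) eW, e1), (.m (.s eX) eX, e1), (.m (.s eY) eY, e1),
    (.m eW eX, .m eX eW), (.m eW eY, .m eY eW), (.m eX eY, .m eY eX),
    (.s (.m (.l 6) eW), e1), (.s (.m (.l 6) eX), e1), (.m (.l 6) eY, .m eY (.l 6)),
    (.s (.m (.l 10) eW), e1), (.m (.l 10) eX, .m eX (.l 10)), (.s (.m (.l 10) eY), e1)] = true := by
  decide +kernel

theorem th_ne : H73.allL [eW, eX, eY] (fun e => Bool.not
    (Nat.beq (e.ev mT 492032 CB) (e1.ev mT 492032 CB))) = true := by decide +kernel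

theorem th_sq {l : ℕ} (h : 6 ≤ l) : Ths.val l * Ths.val l = 1 := Ths.sat.sq h

theorem th_one : evw Ths.val e1.flat = 1 := by
  show Ths.val 6 * (Ths.val 6 * 1) = 1
  rw [mul_one, th_sq le_rfl]

theorem th_ne_one {e : WE} (he : e ∈ [eW, eX, eY]) : evw Ths.val e.flat ≠ 1 := fun h => by
  have k : ∀ w : List ℕ, (∀ l ∈ w, l ∈ LB) → ρ (evw Ths.val w) = evw π w := fun w hw => by
    rw [map_evw]
    exact congrArg List.prod (List.map_congr_left fun l hl => hρ l (hw l hl))
  have m : ∀ l ∈ e.flat, l ∈ LB :=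
    (by decide +kernel : ∀ e ∈ [eW, eX, eY], ∀ l ∈ e.flat, l ∈ LB) e he
  have m1 : ∀ l ∈ e1.flat, l ∈ LB := by decide +kernel
  have a := H73.allL_spec th_ne e he
  have r := WE.ev_spec hπ m
  have r1 := WE.ev_spec hπ m1
  have q : evw π e.flat = evw π e1.flat := by rw [← k _ m, ← k _ m1, h, th_one]
  rw [Bool.not_eq_true'] at a
  have z : ∀ e ∈ [eW, eX, eY, e1], ∃ x y, e.ev mT 492032 CB = mT x y := by
    simp only [List.forall_mem_cons]
    exact ⟨⟨_, _, rfl⟩, ⟨_, _, rfl⟩, ⟨_, _, rfl⟩, ⟨_, _, rfl⟩, by simp⟩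
  obtain ⟨x, y, e2⟩ := z e (List.mem_append_left [e1] he)
  obtain ⟨x1, y1, e3⟩ := z e1 (by simp)
  change SB.R (e.ev mT 492032 CB) _ at r
  change SB.R (e1.ev mT 492032 CB) _ at r1
  rw [e2] at r a
  rw [e3] at r1 a
  exact Sys.R.ne_of_beq (S := SB) r r1 a q

theorem inv_of_sq {G : Type*} [Group G] {s x : G} (hs : s * s = 1) (h : s * x * (s * x) = 1) :
    s * x * s⁻¹ = x⁻¹ := by
  rw [← eq_inv_of_mul_eq_one_left hs]
  exact eq_inv_of_mul_eq_one_left (by rw [mul_assoc, h])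

theorem big_th0 : Big Th := by
  haveI : Finite Th := Nat.finite_of_card_ne_zero (by rw [H88.ThT.card]; norm_num)
  have h := of_eqsE th_eq
  simp only [List.forall_mem_cons, th_one] at h
  have fm : ∀ a b : WE, evw Ths.val (WE.m a b).flat = evw Ths.val a.flat * evw Ths.val b.flat :=
    fun a b => evw_append _ _ _
  have fs : ∀ a : WE, evw Ths.val (WE.s a).flat = evw Ths.val a.flat * evw Ths.val a.flat :=
    fun a => evw_append _ _ _
  have fl : ∀ l, evw Ths.val (WE.l l).flat = Ths.val l := fun l => mul_one _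
  simp only [fm, fs, fl] at h
  obtain ⟨h1, h2, h3, h4, h5, h6, h7, h8, h9, h10, h11, h12, -⟩ := h
  exact big_of_three (p := 3) (s := Ths.val 6) (t := Ths.val 10) (by norm_num) (by norm_num)
    (by rw [pow_succ, pow_two, h1]) (by rw [pow_succ, pow_two, h2]) (by rw [pow_succ, pow_two, h3])
    (th_ne_one (e := eW) (by simp)) (th_ne_one (e := eX) (by simp)) (th_ne_one (e := eY) (by simp))
    h4 h5 h6 (inv_of_sq (th_sq le_rfl) h7) (inv_of_sq (th_sq le_rfl) h8)
    (by rw [h9, mul_inv_cancel_right]) (inv_of_sq (th_sq (by norm_num)) h10)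
    (by rw [h11, mul_inv_cancel_right]) (inv_of_sq (th_sq (by norm_num)) h12)

theorem big_hn0 : Big HN :=
  H73.HNT.exA12.elim fun ψ h => (H62.QT.big_alt (by norm_num)).of_injective ψ h

theorem jobSpB : JobSpB.{u} := fun _ _ _ _ hn h => by
  rcases h with h | h | h | h | h | h | h
  exacts [big_fi22 hn h, big_fi23 hn h, big_fi24 hn h, h.elim fun e => big_hn0.of_equiv e,
    h.elim fun e => big_th0.of_equiv e, big_B hn h, big_M hn h]

end H37.QT
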